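import Cfsg.Agent.Timmesfeld.JordanField
import Cfsg.Agent.Classical.Linear.Generation

/-!
Two opposite transvection groups on a square of a finite elementary abelian 2-group generate `SL₂`.
-/

set_option autoImplicit false
set_option linter.style.haveILetI false
set_option linter.unusedSectionVars false

universe u v

namespace CfsgLib.Timmesfeld

variable {A : Type v} [AddCommGroup A] [Finite A] [Nontrivial A]

theorem finite_end : Finite (AddMonoid.End A) :=
  Finite.of_injective (fun f : AddMonoid.End A => (f : A → A)) DFunLike.coe_injective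

theorem isUnit_of_injective {s : AddMonoid.End A} (hs : Function.Injective s) : IsUnit s := by
  haveI := finite_end (A := A)
  let e : A ≃+ A := AddEquiv.ofBijective s ⟨hs, Finite.injective_iff_surjective.1 hs⟩
  exact IsUnit.of_mul_eq_one (e.symm.toAddMonoidHom : AddMonoid.End A)
    (AddMonoidHom.ext fun a => e.apply_symm_apply a)

/-- A Jordan set of full size in `End A` is the image of a finite field. -/
theorem exists_galois {S : AddSubgroup (AddMonoid.End A)} (hS : JordanSet S)
    (hcard : Nat.card S = Nat.card A) :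
    ∃ (F : Type) (_ : Field F) (_ : Fintype F), Fintype.card F = Nat.card A ∧
      ∃ g : F →+* AddMonoid.End A, (∀ x, g x ∈ S) ∧ ∀ s ∈ S, ∃ x, g x = s := by
  classical
  haveI := finite_end (A := A)
  haveI : Nontrivial (AddMonoid.End A) :=
    ⟨⟨0, 1, fun h => by
      obtain ⟨a, ha⟩ := exists_ne (0 : A)
      exact ha (DFunLike.congr_fun h a).symm⟩⟩
  have hsq : ∀ a ∈ S, ∃ c ∈ S, c * c = a := by
    let f : S → S := fun a => ⟨(a : AddMonoid.End A) * a, by
      simpa [pow_two] using hS.pow_mem a.2 2⟩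
    have hf : Function.Injective f := by
      intro a b hab
      have hab' : (a : AddMonoid.End A) * a = b * b := congrArg Subtype.val hab
      refine Subtype.ext (two_eq_of_add hS.two (hS.mul_self_eq_zero (S.add_mem a.2 b.2) ?_))
      rw [add_mul, mul_add, mul_add, hS.commute b.2 a.2, hab',
        show ∀ p q : AddMonoid.End A, p + q + (q + p) = (p + p) + (q + q) from fun p q => by abel,
        hS.add_self, hS.add_self, add_zero]
    intro a ha
    obtain ⟨c, hc⟩ := Finite.injective_iff_surjective.1 hf ⟨a, ha⟩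
    exact ⟨c, c.2, congrArg Subtype.val hc⟩
  let T : Subring (AddMonoid.End A) :=
    { S with
      one_mem' := hS.one_mem
      mul_mem' := fun {a b} ha hb => by
        obtain ⟨c, hc, rfl⟩ := hsq a ha
        have h := hS.jordan c hc b hb
        rwa [mul_assoc, hS.commute hb hc, ← mul_assoc] at h }
  obtain ⟨L, _, _, g, hg⟩ := exists_field_of_subring T (fun a ha b hb => hS.commute ha hb)
    fun a ha => hS.unit a ha
  haveI : CharP L 2 := charTwo_of_hom hS.two g
  obtain ⟨n, -, hn⟩ := FiniteField.card L 2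
  letI : Fintype (GaloisField 2 n) := Fintype.ofFinite _
  have hcardF : Fintype.card (GaloisField 2 n) = Fintype.card L := by
    rw [Fintype.card_eq_nat_card, GaloisField.card 2 n n.pos.ne', hn]
  have hL : Fintype.card L = Nat.card A := by
    rw [← hcard, ← Nat.card_eq_fintype_card]
    exact Nat.card_congr (Equiv.ofBijective (fun l => (⟨g l, (hg _).2 ⟨l, rfl⟩⟩ : S))
      ⟨fun a b h => g.injective (congrArg Subtype.val h), fun s => by
        obtain ⟨l, hl⟩ := (hg s.1).1 s.2
        exact ⟨l, Subtype.ext hl⟩⟩)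
  let e : GaloisField 2 n ≃+* L := FiniteField.ringEquivOfCardEq hcardF
  refine ⟨GaloisField 2 n, inferInstance, inferInstance, hcardF.trans hL, g.comp e.toRingHom,
    fun x => (hg _).2 ⟨_, rfl⟩, fun s hs => ?_⟩
  obtain ⟨l, rfl⟩ := (hg s).1 hs
  exact ⟨e.symm l, by rw [RingHom.comp_apply]; exact congrArg g (e.apply_symm_apply l)⟩

theorem jordan_of_match {S S' : AddSubgroup (AddMonoid.End A)} (two : ∀ a : A, a + a = 0)
    (h1 : (1 : AddMonoid.End A) ∈ S) (hunit : ∀ s ∈ S, s ≠ 0 → IsUnit s)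
    (hcard : Nat.card S' = Nat.card S) (hmatch : ∀ t ∈ S', t ≠ 0 → ∃ s ∈ S, s * t = 1) :
    S' = S ∧ JordanSet S := by
  classical
  haveI := finite_end (A := A)
  haveI : Nontrivial (AddMonoid.End A) :=
    ⟨⟨0, 1, fun h => by
      obtain ⟨a, ha⟩ := exists_ne (0 : A)
      exact ha (DFunLike.congr_fun h a).symm⟩⟩
  have two' : (1 : AddMonoid.End A) + 1 = 0 := AddMonoidHom.ext fun a => two a
  choose f hfS hf using hmatch
  let F : S' → S := fun t => if h : (t : AddMonoid.End A) = 0 then 0 else ⟨f t t.2 h, hfS t t.2 h⟩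
  have hF : ∀ t : S', (t : AddMonoid.End A) ≠ 0 →
      (F t : AddMonoid.End A) * t = 1 ∧ (F t : AddMonoid.End A) ≠ 0 := by
    intro t ht
    have hFt : (F t : AddMonoid.End A) = f t t.2 ht := by simp only [F, dif_neg ht]
    refine ⟨by rw [hFt]; exact hf t t.2 ht, fun h => ?_⟩
    have := hf t t.2 ht
    rw [← hFt, h, zero_mul] at this
    exact zero_ne_one this
  have hFinj : Function.Injective F := by
    intro a b hab
    by_cases ha : (a : AddMonoid.End A) = 0
    · by_cases hb : (b : AddMonoid.End A) = 0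
      · exact Subtype.ext (ha.trans hb.symm)
      · have h0 : (F a : AddMonoid.End A) = 0 := by rw [show F a = 0 from dif_pos ha]; rfl
        exact absurd (hab ▸ h0) (hF b hb).2
    · by_cases hb : (b : AddMonoid.End A) = 0
      · have h0 : (F b : AddMonoid.End A) = 0 := by rw [show F b = 0 from dif_pos hb]; rfl
        exact absurd (hab.symm ▸ h0) (hF a ha).2
      · exact Subtype.ext ((hunit _ (F a).2 (hF a ha).2).mul_left_cancel
          ((hF a ha).1.trans (by rw [hab]; exact (hF b hb).1.symm)))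
  have hinv : ∀ s ∈ S, s ≠ 0 → ∃ t ∈ S', s * t = 1 ∧ t * s = 1 := by
    intro s hs hs0
    obtain ⟨t, ht⟩ := (hFinj.bijective_of_nat_card_le hcard.ge).2 ⟨s, hs⟩
    have ht0 : (t : AddMonoid.End A) ≠ 0 := fun h => hs0 (by
      have := congrArg Subtype.val ht
      rw [show F t = 0 from dif_pos h] at this
      exact this.symm)
    have h := (hF t ht0).1
    rw [ht] at h
    exact ⟨t, t.2, h, mul_eq_one_comm.1 h⟩
  have hua : ∀ a ∈ S, ∀ b ∈ S', a ≠ 0 → a + a * b * a ∈ S := by
    intro a ha b hb ha0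
    by_cases hb0 : b = 0
    · simpa [hb0] using ha
    have hsb := hfS b hb hb0
    have hbs : b * f b hb hb0 = 1 := mul_eq_one_comm.1 (hf b hb hb0)
    set sb := f b hb hb0
    have hd : sb + a ∈ S := S.add_mem hsb ha
    by_cases hd0 : sb + a = 0
    · have := two_eq_of_add two' hd0
      rw [this] at hbs
      rw [mul_assoc, hbs, mul_one, two_add_self two']
      exact S.zero_mem
    obtain ⟨a', ha', haa, -⟩ := hinv a ha ha0
    obtain ⟨d', hd', hdd, -⟩ := hinv _ hd hd0
    have hm := S'.add_mem ha' hd'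
    have hw : (a + a * b * a) * (a' + d') = 1 := by
      have e : a + a * b * a = a * b * (sb + a) := by
        rw [mul_add, mul_assoc a b sb, hbs, mul_one]
      have e2 : (a + a * b * a) * d' = a * b := by rw [e, mul_assoc, hdd, mul_one]
      rw [mul_add, e2, add_mul, mul_assoc (a * b) a a', haa, mul_one, add_assoc,
        two_add_self two', add_zero]
    have hm0 : a' + d' ≠ 0 := fun h => by rw [h, mul_zero] at hw; exact zero_ne_one hw
    have h2 := hf _ hm hm0
    rw [show a + a * b * a = f _ hm hm0 from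
      (IsUnit.of_mul_eq_one_right _ h2).mul_right_cancel (hw.trans h2.symm)]
    exact hfS _ hm hm0
  have hle : S' ≤ S := fun b hb => by
    have h := hua 1 h1 b hb one_ne_zero
    rw [one_mul, mul_one] at h
    have h2 := S.sub_mem h h1
    rwa [add_sub_cancel_left] at h2
  have heq : S' = S := by
    refine SetLike.ext' (Set.eq_of_subset_of_ncard_le hle (le_of_eq ?_))
    exact hcard.symm
  refine ⟨heq, ⟨two', h1, fun a ha b hb => ?_, hunit⟩⟩
  by_cases ha0 : a = 0
  · simp [ha0]
  have h := S.sub_mem (hua a ha b (heq ▸ hb) ha0) ha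
  rwa [add_sub_cancel_left] at h

/-- Two opposite transvection groups generate `SL₂`. -/
theorem exists_sl2 {G : Type u} [Group G] [Finite G] (two : ∀ a : A, a + a = 0)
    (W X Y : Subgroup G) (e : A × A → G) (he : ∀ w, w ∈ W ↔ ∃ p, e p = w)
    (hinj : Function.Injective e) (S S' : AddSubgroup (AddMonoid.End A))
    (h1 : (1 : AddMonoid.End A) ∈ S) (hunit : ∀ s ∈ S, s ≠ 0 → IsUnit s)
    (hcard : Nat.card S = Nat.card A) (hcard' : Nat.card S' = Nat.card A)
    (hmatch : ∀ t ∈ S', t ≠ 0 → ∃ s ∈ S, s * t = 1)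
    (hX : ∀ x ∈ X, ∃ s ∈ S, ∀ a b, x * e (a, b) * x⁻¹ = e (a + s b, b))
    (hX' : ∀ s ∈ S, ∃ x ∈ X, ∀ a b, x * e (a, b) * x⁻¹ = e (a + s b, b))
    (hY : ∀ y ∈ Y, ∃ t ∈ S', ∀ a b, y * e (a, b) * y⁻¹ = e (a, b + t a))
    (hY' : ∀ t ∈ S', ∃ y ∈ Y, ∀ a b, y * e (a, b) * y⁻¹ = e (a, b + t a)) :
    ∃ (F : Type) (_ : Field F) (_ : Fintype F), Fintype.card F = Nat.card A ∧
      ∃ φ : ↥(X ⊔ Y) →* Matrix.SpecialLinearGroup (Fin 2) F, Function.Surjective φ ∧
        φ.ker = (Subgroup.centralizer (W : Set G)).subgroupOf (X ⊔ Y) := by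
  classical
  obtain ⟨heq, hJ⟩ := jordan_of_match two h1 hunit (hcard'.trans hcard.symm) hmatch
  obtain ⟨F, _, _, hF, g, hgS, hgsurj⟩ := exists_galois hJ hcard
  haveI := finite_end (A := A)
  haveI : Nontrivial (AddMonoid.End A) :=
    ⟨⟨0, 1, fun h => by
      obtain ⟨a, ha⟩ := exists_ne (0 : A)
      exact ha (DFunLike.congr_fun h a).symm⟩⟩
  let act : Matrix (Fin 2) (Fin 2) F → A × A → A × A := fun M p =>
    (g (M 0 0) p.1 + g (M 0 1) p.2, g (M 1 0) p.1 + g (M 1 1) p.2)
  have hone : ∀ p, act 1 p = p := fun p => by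
    simp [act, map_one, map_zero]
  have ea : ∀ (x y : AddMonoid.End A) (a : A), (x + y) a = x a + y a := fun _ _ _ => rfl
  have em : ∀ (x y : AddMonoid.End A) (a : A), (x * y) a = x (y a) := fun _ _ _ => rfl
  have hact : ∀ M N p, act (M * N) p = act M (act N p) := by
    intro M N p
    simp only [act, Matrix.mul_apply, Fin.sum_univ_two, map_add, map_mul]
    refine Prod.ext ?_ ?_
    · show (g (M 0 0) * g (N 0 0) + g (M 0 1) * g (N 1 0) : AddMonoid.End A) p.1 +
        (g (M 0 0) * g (N 0 1) + g (M 0 1) * g (N 1 1) : AddMonoid.End A) p.2 = _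
      simp only [ea, em, map_add]
      abel
    · show (g (M 1 0) * g (N 0 0) + g (M 1 1) * g (N 1 0) : AddMonoid.End A) p.1 +
        (g (M 1 0) * g (N 0 1) + g (M 1 1) * g (N 1 1) : AddMonoid.End A) p.2 = _
      simp only [ea, em, map_add]
      abel
  let Rel : G → Matrix.SpecialLinearGroup (Fin 2) F → Prop :=
    fun h M => ∀ p, h * e p * h⁻¹ = e (act M.1 p)
  have huniq : ∀ h M N, Rel h M → Rel h N → M = N := by
    intro h M N hM hN
    have hp : ∀ p, act M.1 p = act N.1 p := fun p => hinj ((hM p).symm.trans (hN p))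
    refine Subtype.ext (Matrix.ext fun i j => g.injective (DFunLike.ext _ _ fun a => ?_))
    fin_cases i <;> fin_cases j
    · simpa [act] using congrArg Prod.fst (hp (a, 0))
    · simpa [act] using congrArg Prod.fst (hp (0, a))
    · simpa [act] using congrArg Prod.snd (hp (a, 0))
    · simpa [act] using congrArg Prod.snd (hp (0, a))
  have hmul : ∀ h k M N, Rel h M → Rel k N → Rel (h * k) (M * N) := by
    intro h k M N hM hN p
    rw [show h * k * e p * (h * k)⁻¹ = h * (k * e p * k⁻¹) * h⁻¹ by group, hN p, hM,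
      Matrix.SpecialLinearGroup.coe_mul, hact]
  have hRel1 : Rel 1 1 := fun p => by
    rw [one_mul, inv_one, mul_one, Matrix.SpecialLinearGroup.coe_one, hone]
  let K : Submonoid G :=
    { carrier := {h | ∃ M, Rel h M}
      one_mem' := ⟨1, hRel1⟩
      mul_mem' := by
        rintro h k ⟨M, hM⟩ ⟨N, hN⟩
        exact ⟨M * N, hmul h k M N hM hN⟩ }
  let K' : Subgroup G :=
    { K with
      inv_mem' := fun {x} hx => by
        have : x⁻¹ = x ^ (Nat.card G - 1) := by
          refine inv_eq_of_mul_eq_one_right ?_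
          rw [← pow_succ', Nat.sub_add_cancel Nat.card_pos, pow_card_eq_one']
        rw [this]
        exact K.pow_mem hx _ }
  have h01 : (0 : Fin 2) ≠ 1 := by decide
  have hXrel : ∀ x, (∃ c : F, ∀ a b, x * e (a, b) * x⁻¹ = e (a + g c b, b)) →
      ∀ c : F, (∀ a b, x * e (a, b) * x⁻¹ = e (a + g c b, b)) →
        Rel x (Matrix.SpecialLinearGroup.transvection h01 c) := by
    rintro x - c hc ⟨a, b⟩
    rw [hc]
    simp [act, Matrix.SpecialLinearGroup.transvection, Matrix.transvection]
  have hYrel : ∀ y, ∀ c : F, (∀ a b, y * e (a, b) * y⁻¹ = e (a, b + g c a)) →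
      Rel y (Matrix.SpecialLinearGroup.transvection h01.symm c) := by
    rintro y c hc ⟨a, b⟩
    rw [hc]
    simp [act, Matrix.SpecialLinearGroup.transvection, Matrix.transvection, add_comm]
  have hle : X ⊔ Y ≤ K' := by
    refine sup_le (fun x hx => ?_) fun y hy => ?_
    · obtain ⟨s, hs, hse⟩ := hX x hx
      obtain ⟨c, rfl⟩ := hgsurj s hs
      exact ⟨_, hXrel x ⟨c, hse⟩ c hse⟩
    · obtain ⟨t, ht, hte⟩ := hY y hy
      obtain ⟨c, rfl⟩ := hgsurj t (heq ▸ ht)
      exact ⟨_, hYrel y c hte⟩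
  have hex : ∀ h : ↥(X ⊔ Y), ∃ M, Rel h M := fun h => hle h.2
  choose φ0 hφ0 using hex
  let φ : ↥(X ⊔ Y) →* Matrix.SpecialLinearGroup (Fin 2) F :=
    { toFun := φ0
      map_one' := huniq _ _ _ (hφ0 1) hRel1
      map_mul' := fun a b => huniq _ _ _ (hφ0 (a * b)) (hmul _ _ _ _ (hφ0 a) (hφ0 b)) }
  refine ⟨F, inferInstance, inferInstance, hF, φ, ?_, ?_⟩
  · rw [← MonoidHom.range_eq_top]
    refine CfsgLib.Classical.Linear.eq_top_of_transvection_mem fun i j hij c => ?_
    have hgc := hgS c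
    fin_cases i <;> fin_cases j
    · exact absurd rfl hij
    · obtain ⟨x, hx, hxe⟩ := hX' (g c) hgc
      exact ⟨⟨x, Subgroup.mem_sup_left hx⟩,
        huniq x _ _ (hφ0 ⟨x, Subgroup.mem_sup_left hx⟩) (hXrel x ⟨c, hxe⟩ c hxe)⟩
    · obtain ⟨y, hy, hye⟩ := hY' (g c) (heq.symm ▸ hgc)
      exact ⟨⟨y, Subgroup.mem_sup_right hy⟩, huniq y _ _ (hφ0 ⟨y, Subgroup.mem_sup_right hy⟩) (hYrel y c hye)⟩
    · exact absurd rfl hij
  · ext h
    rw [MonoidHom.mem_ker, Subgroup.mem_subgroupOf, Subgroup.mem_centralizer_iff]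
    constructor
    · intro hh w hw
      obtain ⟨p, rfl⟩ := (he w).1 hw
      have h2 : Rel (h : G) 1 := hh ▸ hφ0 h
      have := h2 p
      rw [Matrix.SpecialLinearGroup.coe_one, hone] at this
      exact (mul_inv_eq_iff_eq_mul.1 this).symm
    · intro hh
      refine huniq _ _ _ (hφ0 h) fun p => ?_
      rw [Matrix.SpecialLinearGroup.coe_one, hone, ← hh (e p) ((he _).2 ⟨p, rfl⟩),
        mul_inv_cancel_right]

end CfsgLib.Timmesfeld
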