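import Mathlib
import Cfsg.Agent.Coprime.Stabilizer
import Cfsg.Agent.S1782

/-!
Timmesfeld's analysis of a TI maximal abelian normal subgroup `V` of a constrained 2-local `N(V)`
with a conjugate of `V` inside `O₂(N(V))`.
-/

set_option autoImplicit false
set_option linter.style.haveILetI false
set_option linter.unusedSectionVars false

open scoped commutatorElement

namespace CfsgLib.Timmesfeld

variable {G : Type*} [Group G]

/-- Conjugate subgroup. -/
abbrev cj (x : G) (H : Subgroup G) : Subgroup G := H.map (MulAut.conj x).toMonoidHom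

theorem mem_cj {x y : G} {H : Subgroup G} : y ∈ cj x H ↔ x⁻¹ * y * x ∈ H := by
  rw [Subgroup.mem_map_equiv, MulAut.conj_symm_apply]

theorem conj_mem_cj {x h : G} {H : Subgroup G} (hh : h ∈ H) : x * h * x⁻¹ ∈ cj x H :=
  ⟨h, hh, rfl⟩

theorem cj_cj (a b : G) (H : Subgroup G) : cj a (cj b H) = cj (a * b) H := by
  ext y; simp only [mem_cj, mul_inv_rev]; rw [show b⁻¹ * (a⁻¹ * y * a) * b = b⁻¹ * a⁻¹ * y * (a * b) by group]

theorem cj_one (H : Subgroup G) : cj 1 H = H := by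
  ext y; simp

theorem cj_inv_cj (a : G) (H : Subgroup G) : cj a⁻¹ (cj a H) = H := by
  rw [cj_cj, inv_mul_cancel, cj_one]

theorem cj_cj_inv (a : G) (H : Subgroup G) : cj a (cj a⁻¹ H) = H := by
  rw [cj_cj, mul_inv_cancel, cj_one]

theorem mem_normalizer_iff_cj {x : G} {H : Subgroup G} :
    x ∈ Subgroup.normalizer (H : Set G) ↔ cj x H = H := by
  constructor
  · intro hx
    ext y
    rw [mem_cj, Subgroup.mem_normalizer_iff.1 hx (x⁻¹ * y * x)]
    rw [show x * (x⁻¹ * y * x) * x⁻¹ = y by group]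
  · intro hx
    rw [Subgroup.mem_normalizer_iff]
    intro y
    constructor
    · intro hy
      exact hx ▸ conj_mem_cj hy
    · intro hy
      rw [← hx, mem_cj] at hy
      rwa [show x⁻¹ * (x * y * x⁻¹) * x = y by group] at hy

/-- The hypotheses on `V` and `Q = O₂(N(V))`. -/
structure TIData (V Q : Subgroup G) : Prop where
  comm : ∀ a ∈ V, ∀ b ∈ V, a * b = b * a
  sq : ∀ a ∈ V, a * a = 1
  le_normalizer : Q ≤ Subgroup.normalizer (V : Set G)
  isPGroup : IsPGroup 2 Q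
  vle : V ≤ Q
  normal : ∀ n ∈ Subgroup.normalizer (V : Set G), ∀ q ∈ Q, n * q * n⁻¹ ∈ Q
  cent : ∀ x ∈ Subgroup.normalizer (V : Set G), (∀ q ∈ Q, x * q = q * x) → x ∈ Q
  largest : ∀ K : Subgroup G, K ≤ Subgroup.normalizer (V : Set G) →
    (∀ n ∈ Subgroup.normalizer (V : Set G), ∀ k ∈ K, n * k * n⁻¹ ∈ K) → IsPGroup 2 K → K ≤ Q
  maxab : ∀ A : Subgroup G, V ≤ A → A ≤ Subgroup.normalizer (V : Set G) →
    (∀ a ∈ A, ∀ b ∈ A, a * b = b * a) →
    (∀ n ∈ Subgroup.normalizer (V : Set G), ∀ a ∈ A, n * a * n⁻¹ ∈ A) → A = V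
  ti : ∀ x : G, cj x V = V ∨ cj x V ⊓ V = ⊥

/-- A conjugate of `V` in `Q` different from `V`. -/
structure Mate (V Q C : Subgroup G) : Prop where
  conj : ∃ a, C = cj a V
  le : C ≤ Q
  ne : C ≠ V

variable {V Q C D : Subgroup G}

/-- `P = C_Q(V)`. -/
abbrev cP (V Q : Subgroup G) : Subgroup G := Q ⊓ Subgroup.centralizer (V : Set G)

theorem mem_cP {x : G} : x ∈ cP V Q ↔ x ∈ Q ∧ ∀ v ∈ V, v * x = x * v := by
  simp only [cP, Subgroup.mem_inf, Subgroup.mem_centralizer_iff, SetLike.mem_coe]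

theorem TIData.ti_eq (d : TIData V Q) {a b w : G} (ha : w ∈ cj a V) (hb : w ∈ cj b V) (hw : w ≠ 1) :
    cj a V = cj b V := by
  rcases d.ti (b⁻¹ * a) with h | h
  · calc cj a V = cj b (cj (b⁻¹ * a) V) := by rw [cj_cj, mul_inv_cancel_left]
      _ = cj b V := by rw [h]
  · exfalso
    apply hw
    have h1 : b⁻¹ * w * b ∈ cj (b⁻¹ * a) V := by
      rw [mem_cj, show (b⁻¹ * a)⁻¹ * (b⁻¹ * w * b) * (b⁻¹ * a) = a⁻¹ * w * a by group]
      exact mem_cj.1 ha
    have h2 : b⁻¹ * w * b = 1 := Subgroup.mem_bot.1 (h ▸ Subgroup.mem_inf.2 ⟨h1, mem_cj.1 hb⟩)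
    calc w = b * (b⁻¹ * w * b) * b⁻¹ := by group
      _ = 1 := by rw [h2, mul_one, mul_inv_cancel]

theorem TIData.v_eq_cj_one : V = cj (1 : G) V := (cj_one V).symm

/-- An element commuting with a nontrivial element of a conjugate of `V` normalises it. -/
theorem TIData.cj_eq_of_comm (d : TIData V Q) {a w x : G} (hw : w ∈ cj a V) (hw1 : w ≠ 1)
    (hx : x * w = w * x) : cj x (cj a V) = cj a V := by
  rw [cj_cj]
  refine d.ti_eq ?_ hw hw1
  rw [← cj_cj, mem_cj, show x⁻¹ * w * x = w by rw [mul_assoc, ← hx, inv_mul_cancel_left]]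
  exact hw

section Mate

variable (d : TIData V Q)
include d

theorem Mate.disjoint (m : Mate V Q C) {x : G} (hC : x ∈ C) (hV : x ∈ V) : x = 1 := by
  obtain ⟨a, rfl⟩ := m.conj
  by_contra hx
  exact m.ne ((d.ti_eq hC (TIData.v_eq_cj_one (V := V) ▸ hV) hx).trans (cj_one V))

theorem Mate.comm' (m : Mate V Q C) : ∀ a ∈ C, ∀ b ∈ C, a * b = b * a := by
  obtain ⟨g, rfl⟩ := m.conj
  rintro _ ⟨a, ha, rfl⟩ _ ⟨b, hb, rfl⟩
  rw [← map_mul, ← map_mul, d.comm a ha b hb]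

theorem Mate.sq' (m : Mate V Q C) : ∀ a ∈ C, a * a = 1 := by
  obtain ⟨g, rfl⟩ := m.conj
  rintro _ ⟨a, ha, rfl⟩
  rw [← map_mul, d.sq a ha, map_one]

theorem Mate.card_eq (m : Mate V Q C) : Nat.card C = Nat.card V := by
  obtain ⟨g, rfl⟩ := m.conj
  exact Subgroup.card_map_of_injective (MulAut.conj g).injective

theorem Mate.ne_bot (m : Mate V Q C) : ∃ b ∈ C, b ≠ 1 := by
  obtain ⟨g, rfl⟩ := m.conj
  by_contra h
  push Not at h
  have hV : ∀ v ∈ V, v = 1 := fun v hv => by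
    have h1 := h _ (conj_mem_cj (x := g) hv)
    calc v = g⁻¹ * (g * v * g⁻¹) * g := by group
      _ = 1 := by rw [h1, mul_one, inv_mul_cancel]
  apply m.ne
  ext y
  rw [mem_cj]
  constructor
  · intro hy
    have h1 := hV _ hy
    have : y = 1 := by
      calc y = g * (g⁻¹ * y * g) * g⁻¹ := by group
        _ = 1 := by rw [h1, mul_one, mul_inv_cancel]
    rw [this]; exact V.one_mem
  · intro hy
    rw [hV y hy, mul_one, inv_mul_cancel]; exact V.one_mem

theorem Mate.normalize (m : Mate V Q C) {b w : G} (hb : b ∈ C) (hb1 : b ≠ 1) (h : w * b = b * w) :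
    cj w C = C := by
  obtain ⟨g, rfl⟩ := m.conj
  exact d.cj_eq_of_comm hb hb1 h

omit d in
theorem inv_eq_self_of_sq {a : G} (h : a * a = 1) : a⁻¹ = a := inv_eq_of_mul_eq_one_right h

/-- `[V, C] = 1`. -/
theorem Mate.commute [Finite G] (m : Mate V Q C) : ∀ v ∈ V, ∀ c ∈ C, v * c = c * v := by
  have hN : ∀ c ∈ C, ∀ v ∈ V, c * v * c⁻¹ ∈ V := fun c hc v hv =>
    (Subgroup.mem_normalizer_iff.1 (d.le_normalizer (m.le hc)) v).1 hv
  have hU : ∀ v ∈ V, cj v C = C → ∀ c ∈ C, v * c = c * v := by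
    intro v hv hnorm c hc
    have h1 : v * c * v⁻¹ * c⁻¹ ∈ C := C.mul_mem (hnorm ▸ conj_mem_cj hc) (C.inv_mem hc)
    have h2 : v * c * v⁻¹ * c⁻¹ ∈ V := by
      rw [show v * c * v⁻¹ * c⁻¹ = v * (c * v⁻¹ * c⁻¹) by group]
      exact V.mul_mem hv (hN c hc _ (V.inv_mem hv))
    exact commutatorElement_eq_one_iff_mul_comm.1 (by
      rw [commutatorElement_def]; exact m.disjoint d h1 h2)
  intro v hv
  by_contra hcontra
  push Not at hcontra
  obtain ⟨c₀, hc₀, hne⟩ := hcontra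
  have hnn : cj v C ≠ C := fun h => hne (hU v hv h c₀ hc₀)
  let f : ↥C → ↥V := fun b => ⟨v * (b : G) * v⁻¹ * (b : G)⁻¹, by
    rw [show v * (b : G) * v⁻¹ * (b : G)⁻¹ = v * ((b : G) * v⁻¹ * (b : G)⁻¹) by group]
    exact V.mul_mem hv (hN b b.2 _ (V.inv_mem hv))⟩
  have hinj : Function.Injective f := by
    intro b b' hbb
    have hb : v * (b : G) * v⁻¹ * (b : G)⁻¹ = v * (b' : G) * v⁻¹ * (b' : G)⁻¹ :=
      congrArg Subtype.val hbb
    by_contra hne'
    apply hnn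
    refine m.normalize d (b := (b' : G)⁻¹ * b) (C.mul_mem (C.inv_mem b'.2) b.2)
      (fun h => hne' (Subtype.ext (inv_mul_eq_one.1 h).symm)) ?_
    calc v * ((b' : G)⁻¹ * b)
        = (v * (b' : G) * v⁻¹)⁻¹ * (v * (b : G) * v⁻¹) * v := by group
      _ = (v * (b' : G) * v⁻¹)⁻¹ * ((v * (b : G) * v⁻¹ * (b : G)⁻¹) * b) * v := by group
      _ = (v * (b' : G) * v⁻¹)⁻¹ * ((v * (b' : G) * v⁻¹ * (b' : G)⁻¹) * b) * v := by rw [hb]
      _ = (b' : G)⁻¹ * b * v := by group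
  haveI : Finite V := inferInstance
  have hbij : Function.Bijective f :=
    hinj.bijective_of_nat_card_le (le_of_eq (m.card_eq d).symm)
  -- some `b` has `⁅v, b⁆ = v`, which then centralises `b`
  obtain ⟨b, hb⟩ := hbij.2 ⟨v, hv⟩
  have hb' : v * (b : G) * v⁻¹ * (b : G)⁻¹ = v := congrArg Subtype.val hb
  have hb1 : (b : G) ≠ 1 := fun h => hne (by
    rw [h] at hb'
    simp only [mul_one, mul_inv_cancel, inv_one] at hb'
    rw [← hb', one_mul, mul_one])
  apply hnn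
  refine m.normalize d b.2 hb1 ?_
  -- `b` inverts `⁅v, b⁆`, an involution
  have h3 : (b : G) * v⁻¹ * (b : G)⁻¹ = 1 := by
    calc (b : G) * v⁻¹ * (b : G)⁻¹ = v⁻¹ * (v * (b : G) * v⁻¹ * (b : G)⁻¹) := by group
      _ = 1 := by rw [hb', inv_mul_cancel]
  have hv1 : v = 1 := by
    calc v = ((b : G)⁻¹ * ((b : G) * v⁻¹ * (b : G)⁻¹) * b)⁻¹ := by group
      _ = 1 := by rw [h3, mul_one, inv_mul_cancel, inv_one]
  rw [hv1, one_mul, mul_one]

theorem Mate.le_cP [Finite G] (m : Mate V Q C) : C ≤ cP V Q := fun c hc =>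
  mem_cP.2 ⟨m.le hc, fun v hv => m.commute d v hv c hc⟩

omit d in
theorem TIData.v_le_cP (d : TIData V Q) : V ≤ cP V Q := fun v hv =>
  mem_cP.2 ⟨d.vle hv, fun w hw => d.comm w hw v hv⟩

omit d in
theorem TIData.cP_normal (d : TIData V Q) : ∀ n ∈ Subgroup.normalizer (V : Set G),
    ∀ p ∈ cP V Q, n * p * n⁻¹ ∈ cP V Q := by
  intro n hn p hp
  rw [mem_cP] at hp ⊢
  refine ⟨d.normal n hn p hp.1, fun v hv => ?_⟩
  have hv' : n⁻¹ * v * n ∈ V := mem_cj.1 ((mem_normalizer_iff_cj.1 hn).symm ▸ hv)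
  calc v * (n * p * n⁻¹) = n * ((n⁻¹ * v * n) * p) * n⁻¹ := by group
    _ = n * (p * (n⁻¹ * v * n)) * n⁻¹ := by rw [hp.2 _ hv']
    _ = n * p * n⁻¹ * v := by group

omit d in
theorem TIData.cP_le_normalizer (d : TIData V Q) : cP V Q ≤ Subgroup.normalizer (V : Set G) :=
  inf_le_left.trans d.le_normalizer

omit d in
/-- `Z(P) = V`. -/
theorem TIData.mem_of_central (d : TIData V Q) {x : G} (hx : x ∈ cP V Q)
    (hc : ∀ p ∈ cP V Q, x * p = p * x) : x ∈ V := by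
  let A : Subgroup G := cP V Q ⊓ Subgroup.centralizer (cP V Q : Set G)
  have hA : A = V := by
    refine d.maxab A ?_ (inf_le_left.trans d.cP_le_normalizer) ?_ ?_
    · refine le_inf d.v_le_cP fun v hv => Subgroup.mem_centralizer_iff.2 fun p hp => ?_
      exact ((mem_cP.1 hp).2 v hv).symm
    · intro a ha b hb
      exact (Subgroup.mem_centralizer_iff.1 ha.2 b hb.1).symm
    · intro n hn a ha
      refine ⟨d.cP_normal n hn a ha.1, Subgroup.mem_centralizer_iff.2 fun p hp => ?_⟩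
      have hp' : n⁻¹ * p * n ∈ cP V Q := by
        simpa using d.cP_normal n⁻¹ (inv_mem hn) p hp
      calc p * (n * a * n⁻¹) = n * ((n⁻¹ * p * n) * a) * n⁻¹ := by group
        _ = n * (a * (n⁻¹ * p * n)) * n⁻¹ := by rw [Subgroup.mem_centralizer_iff.1 ha.2 _ hp']
        _ = n * a * n⁻¹ * p := by group
  rw [← hA]
  exact ⟨hx, Subgroup.mem_centralizer_iff.2 fun p hp => (hc p hp).symm⟩

omit d in
/-- `P' ≤ V`. -/
theorem TIData.commutator_mem [Finite G] (d : TIData V Q) {x y : G} (hx : x ∈ cP V Q)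
    (hy : y ∈ cP V Q) : ⁅x, y⁆ ∈ V := by
  set P := cP V Q
  set M : Subgroup G := ⁅P, P⁆ ⊔ V with hM
  have hMP : M ≤ P := by
    refine sup_le ?_ d.v_le_cP
    rw [Subgroup.commutator_le]
    intro a ha b hb
    rw [commutatorElement_def]
    exact P.mul_mem (P.mul_mem (P.mul_mem ha hb) (P.inv_mem ha)) (P.inv_mem hb)
  have hMn : ∀ n ∈ Subgroup.normalizer (V : Set G), ∀ a ∈ M, n * a * n⁻¹ ∈ M := by
    intro n hn
    have hle : M.map (MulAut.conj n).toMonoidHom ≤ M := by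
      rw [hM, Subgroup.map_sup, Subgroup.map_commutator]
      refine sup_le_sup (Subgroup.commutator_mono ?_ ?_) (le_of_eq (mem_normalizer_iff_cj.1 hn)) <;>
        · rintro _ ⟨a, ha, rfl⟩
          exact d.cP_normal n hn a ha
    exact fun a ha => hle (conj_mem_cj ha)
  have hVc : ∀ v ∈ V, ∀ p ∈ P, v * p = p * v := fun v hv p hp => (mem_cP.1 hp).2 v hv
  let A : Subgroup G :=
    { carrier := {a | a ∈ M ∧ ∀ p ∈ P, ⁅a, p⁆ ∈ V}
      one_mem' := ⟨M.one_mem, fun p _ => by rw [commutatorElement_one_left]; exact V.one_mem⟩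
      mul_mem' := by
        rintro a b ⟨ha, ha'⟩ ⟨hb, hb'⟩
        refine ⟨M.mul_mem ha hb, fun p hp => ?_⟩
        have e : ⁅a * b, p⁆ = ⁅b, p⁆ * ⁅a, p⁆ := by
          rw [show ⁅a * b, p⁆ = a * ⁅b, p⁆ * (p * a⁻¹ * p⁻¹) by
            simp only [commutatorElement_def]; group,
            ← hVc _ (hb' p hp) a (hMP ha), commutatorElement_def a p]
          group
        rw [e]; exact V.mul_mem (hb' p hp) (ha' p hp)
      inv_mem' := by
        rintro a ⟨ha, ha'⟩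
        refine ⟨M.inv_mem ha, fun p hp => ?_⟩
        have h := ha' p hp
        have e : ⁅a⁻¹, p⁆ = (⁅a, p⁆)⁻¹ := by
          rw [show ⁅a⁻¹, p⁆ = a⁻¹ * (⁅a, p⁆)⁻¹ * a by simp only [commutatorElement_def]; group,
            mul_assoc, hVc _ (V.inv_mem h) a (hMP ha), inv_mul_cancel_left]
        rw [e]; exact V.inv_mem h }
  have hA : A = V := by
    refine d.maxab A (fun v hv => ⟨le_sup_right (a := ⁅P, P⁆) hv, fun p hp => ?_⟩)
      (fun a ha => d.cP_le_normalizer (hMP ha.1)) ?_ ?_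
    · rw [commutatorElement_eq_one_iff_mul_comm.2 (hVc v hv p hp)]; exact V.one_mem
    · intro a ha b hb
      have hle : M ≤ Subgroup.centralizer ({a} : Set G) := by
        refine sup_le ?_ fun v hv => ?_
        · rw [Subgroup.commutator_le]
          intro p hp q hq
          rw [Subgroup.mem_centralizer_singleton_iff]
          have h1 := ha.2 p hp
          have h2 := ha.2 q hq
          have c1 := hVc _ h1
          have c2 := hVc _ h2
          have e : a * ⁅p, q⁆ * a⁻¹ = ⁅⁅a, p⁆ * p, ⁅a, q⁆ * q⁆ := by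
            simp only [commutatorElement_def]; group
          have e2 : ⁅⁅a, p⁆ * p, ⁅a, q⁆ * q⁆ = ⁅p, q⁆ := by
            generalize ⁅a, p⁆ = z at h1 c1
            generalize ⁅a, q⁆ = w at h2 c2
            simp only [commutatorElement_def, mul_inv_rev]
            calc z * p * (w * q) * (p⁻¹ * z⁻¹) * (q⁻¹ * w⁻¹)
                = z * (p * w) * (q * p⁻¹) * (z⁻¹ * q⁻¹) * w⁻¹ := by group
              _ = z * (w * p) * (q * p⁻¹) * (q⁻¹ * z⁻¹) * w⁻¹ := by
                  rw [← c2 p hp, c1 q⁻¹ (P.inv_mem hq) |> fun h => (show z⁻¹ * q⁻¹ = q⁻¹ * z⁻¹ from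
                    (Commute.inv_left h : Commute z⁻¹ q⁻¹))]
              _ = (z * w) * (p * q * p⁻¹ * q⁻¹) * (z⁻¹ * w⁻¹) := by group
              _ = (p * q * p⁻¹ * q⁻¹) * ((z * w) * (z⁻¹ * w⁻¹)) := by
                  rw [hVc _ (V.mul_mem h1 h2) _ (P.mul_mem (P.mul_mem (P.mul_mem hp hq)
                    (P.inv_mem hp)) (P.inv_mem hq)), mul_assoc]
              _ = p * q * p⁻¹ * q⁻¹ := by
                  rw [d.comm z h1 w h2]; group
          calc ⁅p, q⁆ * a = (a * ⁅p, q⁆ * a⁻¹) * a := by rw [e, e2]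
            _ = a * ⁅p, q⁆ := inv_mul_cancel_right _ _
        · rw [Subgroup.mem_centralizer_singleton_iff]
          exact hVc v hv a (hMP ha.1)
      exact (Subgroup.mem_centralizer_singleton_iff.1 (hle hb.1)).symm
    · intro n hn a ha
      refine ⟨hMn n hn a ha.1, fun p hp => ?_⟩
      have hp' : n⁻¹ * p * n ∈ P := by
        simpa only [inv_inv] using d.cP_normal n⁻¹ (inv_mem hn) p hp
      have h := (Subgroup.mem_normalizer_iff.1 hn _).1 (ha.2 _ hp')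
      rwa [show n * ⁅a, n⁻¹ * p * n⁆ * n⁻¹ = ⁅n * a * n⁻¹, p⁆ by
        simp only [commutatorElement_def]; group] at h
  suffices hMV : M ≤ V from
    hMV (le_sup_left (b := V) (Subgroup.commutator_mem_commutator hx hy))
  by_contra hMV
  haveI : (V.subgroupOf P).Normal := by
    refine ⟨fun v hv p => ?_⟩
    rw [Subgroup.mem_subgroupOf] at hv ⊢
    rw [Subgroup.coe_mul, Subgroup.coe_mul, ← hVc _ hv p p.2, Subgroup.coe_inv, mul_inv_cancel_right]
    exact hv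
  haveI : (M.subgroupOf P).Normal := by
    refine ⟨fun a ha p => ?_⟩
    rw [Subgroup.mem_subgroupOf] at ha ⊢
    exact hMn p (d.cP_le_normalizer p.2) _ ha
  let π := QuotientGroup.mk' (V.subgroupOf P)
  haveI : ((M.subgroupOf P).map π).Normal :=
    Subgroup.Normal.map inferInstance π (QuotientGroup.mk'_surjective _)
  have hne : (M.subgroupOf P).map π ≠ ⊥ := by
    intro hbot
    rw [Subgroup.map_eq_bot_iff, QuotientGroup.ker_mk'] at hbot
    exact hMV fun a ha => hbot (x := ⟨a, hMP ha⟩) ha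
  obtain ⟨_, ⟨m, hm, rfl⟩, hm1, hmc⟩ := Cfsg.Agent.S1782.exists_central_mem
    ((d.isPGroup.to_le inf_le_left).to_quotient _) _ hne
  apply hm1
  refine (QuotientGroup.eq_one_iff m).2 ?_
  have hmA : (m : G) ∈ A := by
    refine ⟨hm, fun p hp => ?_⟩
    have h : π ⁅m, (⟨p, hp⟩ : P)⁆ = 1 := by
      rw [map_commutatorElement, commutatorElement_eq_one_iff_mul_comm]
      exact (hmc _).symm
    have h2 : ⁅m, (⟨p, hp⟩ : P)⁆ ∈ V.subgroupOf P := (QuotientGroup.eq_one_iff _).1 h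
    exact h2
  rw [hA] at hmA
  exact hmA

omit d in
theorem TIData.commutator_mul_left [Finite G] (d : TIData V Q) {p q b : G} (hp : p ∈ cP V Q)
    (hq : q ∈ cP V Q) (hb : b ∈ cP V Q) : ⁅p * q, b⁆ = ⁅q, b⁆ * ⁅p, b⁆ := by
  rw [show ⁅p * q, b⁆ = p * ⁅q, b⁆ * (b * p⁻¹ * b⁻¹) by simp only [commutatorElement_def]; group,
    ← (mem_cP.1 hp).2 _ (d.commutator_mem hq hb), commutatorElement_def p b]
  group

omit d in
theorem TIData.commutator_mul_right [Finite G] (d : TIData V Q) {p q b : G} (hp : p ∈ cP V Q)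
    (hq : q ∈ cP V Q) (hb : b ∈ cP V Q) : ⁅b, p * q⁆ = ⁅b, p⁆ * ⁅b, q⁆ := by
  rw [← commutatorElement_inv (p * q) b, d.commutator_mul_left hp hq hb, mul_inv_rev,
    commutatorElement_inv, commutatorElement_inv]

omit d in
/-- Squares of `P` lie in `V`. -/
theorem TIData.sq_mem [Finite G] (d : TIData V Q) {x : G} (hx : x ∈ cP V Q) : x * x ∈ V := by
  refine d.mem_of_central ((cP V Q).mul_mem hx hx) fun p hp => ?_
  rw [← commutatorElement_eq_one_iff_mul_comm, d.commutator_mul_left hx hx hp]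
  exact d.sq _ (d.commutator_mem hx hp)

omit d in
theorem TIData.eq_or_mem_cP [Finite G] (d : TIData V Q) {p : G} (hp : p ∈ cP V Q) :
    cj p V = V :=
  mem_normalizer_iff_cj.1 (d.cP_le_normalizer hp)

/-- An element of `P` normalising a mate centralises it. -/
theorem Mate.commute_of_normalize [Finite G] (m : Mate V Q C) {p : G} (hp : p ∈ cP V Q)
    (hn : cj p C = C) : ∀ c ∈ C, p * c = c * p := by
  intro c hc
  rw [← commutatorElement_eq_one_iff_mul_comm]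
  refine m.disjoint d ?_ (d.commutator_mem hp (m.le_cP d hc))
  rw [commutatorElement_def]
  exact C.mul_mem (hn ▸ conj_mem_cj hc) (C.inv_mem hc)

/-- An element of `P` centralising a nontrivial element of a mate centralises it. -/
theorem Mate.commute_of_commute [Finite G] (m : Mate V Q C) {p b : G} (hp : p ∈ cP V Q)
    (hb : b ∈ C) (hb1 : b ≠ 1) (h : p * b = b * p) : ∀ c ∈ C, p * c = c * p :=
  m.commute_of_normalize d hp (m.normalize d hb hb1 h)

/-- There is a mate that does not commute with a given one. -/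
theorem Mate.exists_partner [Finite G] (m : Mate V Q C) :
    ∃ D, Mate V Q D ∧ ∀ x ∈ D, x ≠ 1 → ∀ b ∈ C, b ≠ 1 → x * b ≠ b * x := by
  suffices h : ∃ D, Mate V Q D ∧ ∃ x ∈ D, ∃ b ∈ C, x * b ≠ b * x by
    obtain ⟨D, mD, x₀, hx₀, b₀, hb₀, hne⟩ := h
    refine ⟨D, mD, fun x hx hx1 b hb hb1 hcom => hne ?_⟩
    have h1 : x * b₀ = b₀ * x := m.commute_of_commute d (mD.le_cP d hx) hb hb1 hcom b₀ hb₀
    exact (mD.commute_of_commute d (m.le_cP d hb₀) hx hx1 h1.symm x₀ hx₀).symm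
  by_contra hall
  push Not at hall
  let s : Set G := {x | x ∈ V ∨ ∃ D, Mate V Q D ∧ x ∈ D}
  let A0 : Subgroup G := Subgroup.closure s
  let A : Subgroup G := A0 ⊓ Subgroup.centralizer s
  have hA0N : A0 ≤ Subgroup.normalizer (V : Set G) := by
    rw [Subgroup.closure_le]
    rintro x (hx | ⟨D, mD, hx⟩)
    · exact d.le_normalizer (d.vle hx)
    · exact d.le_normalizer (mD.le hx)
  have hsN : ∀ n ∈ Subgroup.normalizer (V : Set G), ∀ x ∈ s, n * x * n⁻¹ ∈ s := by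
    rintro n hn x (hx | ⟨D, mD, hx⟩)
    · exact Or.inl ((Subgroup.mem_normalizer_iff.1 hn x).1 hx)
    · refine Or.inr ⟨cj n D, ⟨?_, ?_, ?_⟩, conj_mem_cj hx⟩
      · obtain ⟨a, rfl⟩ := mD.conj
        exact ⟨n * a, cj_cj n a V⟩
      · rintro _ ⟨y, hy, rfl⟩
        exact d.normal n hn y (mD.le hy)
      · intro h
        apply mD.ne
        rw [← cj_inv_cj n D, h]
        exact mem_normalizer_iff_cj.1 (inv_mem hn)
  have hA : A = V := by
    refine d.maxab A ?_ (inf_le_left.trans hA0N) ?_ ?_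
    · refine le_inf (fun v hv => Subgroup.subset_closure (Or.inl hv))
        fun v hv => Subgroup.mem_centralizer_iff.2 ?_
      rintro x (hx | ⟨D, mD, hx⟩)
      · exact d.comm x hx v hv
      · exact ((mem_cP.1 (mD.le_cP d hx)).2 v hv).symm
    · intro a ha b hb
      have h : A0 ≤ Subgroup.centralizer ({a} : Set G) := by
        rw [Subgroup.closure_le]
        intro x hx
        rw [SetLike.mem_coe, Subgroup.mem_centralizer_singleton_iff]
        exact Subgroup.mem_centralizer_iff.1 ha.2 x hx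
      exact (Subgroup.mem_centralizer_singleton_iff.1 (h hb.1)).symm
    · intro n hn a ha
      refine ⟨?_, Subgroup.mem_centralizer_iff.2 fun x hx => ?_⟩
      · have hle : A0.map (MulAut.conj n).toMonoidHom ≤ A0 := by
          rw [MonoidHom.map_closure, Subgroup.closure_le]
          rintro _ ⟨x, hx, rfl⟩
          exact Subgroup.subset_closure (hsN n hn x hx)
        exact hle (conj_mem_cj ha.1)
      · have hx' : n⁻¹ * x * n ∈ s := by simpa using hsN n⁻¹ (inv_mem hn) x hx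
        calc x * (n * a * n⁻¹) = n * ((n⁻¹ * x * n) * a) * n⁻¹ := by group
          _ = n * (a * (n⁻¹ * x * n)) * n⁻¹ := by rw [Subgroup.mem_centralizer_iff.1 ha.2 _ hx']
          _ = n * a * n⁻¹ * x := by group
  obtain ⟨b, hb, hb1⟩ := m.ne_bot d
  refine hb1 (m.disjoint d hb (hA ▸ Subgroup.mem_inf.2
    ⟨Subgroup.subset_closure (Or.inr ⟨C, m, hb⟩), Subgroup.mem_centralizer_iff.2 ?_⟩))
  rintro x (hx | ⟨D, mD, hx⟩)
  · exact (mem_cP.1 (m.le_cP d hb)).2 x hx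
  · exact hall D mD x hx b hb

/-- For `b ∈ C#`, every element of `V` is `⁅p, b⁆` with `p` in a partner mate. -/
theorem Mate.exists_commutator_eq [Finite G] (m : Mate V Q C) (mD : Mate V Q D)
    (hD : ∀ x ∈ D, x ≠ 1 → ∀ b ∈ C, b ≠ 1 → x * b ≠ b * x)
    {b : G} (hb : b ∈ C) (hb1 : b ≠ 1) : ∀ v ∈ V, ∃ x ∈ D, ⁅x, b⁆ = v := by
  let f : ↥D → ↥V := fun x => ⟨⁅(x : G), b⁆, d.commutator_mem (mD.le_cP d x.2) (m.le_cP d hb)⟩
  have hinj : Function.Injective f := by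
    intro x y hxy
    have hxy' : ⁅(x : G), b⁆ = ⁅(y : G), b⁆ := congrArg Subtype.val hxy
    by_contra hne
    have h1 : (x : G) * y ≠ 1 := fun h => hne (Subtype.ext (by
      rw [eq_inv_of_mul_eq_one_left h, inv_eq_self_of_sq (mD.sq' d _ y.2)]))
    refine hD _ (D.mul_mem x.2 y.2) h1 b hb hb1 (commutatorElement_eq_one_iff_mul_comm.1 ?_)
    rw [d.commutator_mul_left (mD.le_cP d x.2) (mD.le_cP d y.2) (m.le_cP d hb), hxy']
    exact d.sq _ (d.commutator_mem (mD.le_cP d y.2) (m.le_cP d hb))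
  intro v hv
  obtain ⟨x, hx⟩ := (hinj.bijective_of_nat_card_le (le_of_eq (mD.card_eq d).symm)).2 ⟨v, hv⟩
  exact ⟨x, x.2, congrArg Subtype.val hx⟩

/-- `b^P = b V` for `b ∈ C#`. -/
theorem Mate.exists_conj [Finite G] (m : Mate V Q C) {b v : G} (hb : b ∈ C) (hb1 : b ≠ 1)
    (hv : v ∈ V) : ∃ p ∈ cP V Q, p * b * p⁻¹ = v * b := by
  obtain ⟨D, mD, hD⟩ := m.exists_partner d
  obtain ⟨x, hx, hxe⟩ := m.exists_commutator_eq d mD hD hb hb1 v hv
  refine ⟨x, mD.le_cP d hx, ?_⟩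
  rw [← hxe, commutatorElement_def, inv_mul_cancel_right]

theorem Mate.mem_sup [Finite G] (m : Mate V Q C) {w : G} :
    w ∈ V ⊔ C ↔ ∃ v ∈ V, ∃ c ∈ C, v * c = w := by
  constructor
  · intro hw
    let W : Subgroup G :=
      { carrier := {w | ∃ v ∈ V, ∃ c ∈ C, v * c = w}
        one_mem' := ⟨1, V.one_mem, 1, C.one_mem, mul_one 1⟩
        mul_mem' := by
          rintro _ _ ⟨v, hv, c, hc, rfl⟩ ⟨v', hv', c', hc', rfl⟩
          exact ⟨v * v', V.mul_mem hv hv', c * c', C.mul_mem hc hc', by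
            rw [mul_assoc v c, ← mul_assoc c, ← m.commute d v' hv' c hc]; group⟩
        inv_mem' := by
          rintro _ ⟨v, hv, c, hc, rfl⟩
          exact ⟨v⁻¹, V.inv_mem hv, c⁻¹, C.inv_mem hc, by
            rw [mul_inv_rev, m.commute d _ (V.inv_mem hv) _ (C.inv_mem hc)]⟩ }
    have hle : V ⊔ C ≤ W := sup_le (fun v hv => ⟨v, hv, 1, C.one_mem, mul_one v⟩)
      fun c hc => ⟨1, V.one_mem, c, hc, one_mul c⟩
    exact hle hw
  · rintro ⟨v, hv, c, hc, rfl⟩
    exact Subgroup.mul_mem_sup hv hc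

theorem Mate.decomp_unique (m : Mate V Q C) {v v' c c' : G} (hv : v ∈ V) (hv' : v' ∈ V)
    (hc : c ∈ C) (hc' : c' ∈ C) (h : v * c = v' * c') : v = v' ∧ c = c' := by
  have h1 : v'⁻¹ * v = c' * c⁻¹ := by
    calc v'⁻¹ * v = v'⁻¹ * (v * c) * c⁻¹ := by group
      _ = c' * c⁻¹ := by rw [h]; group
  have h2 := m.disjoint d (C.mul_mem hc' (C.inv_mem hc)) (h1 ▸ V.mul_mem (V.inv_mem hv') hv)
  have hcc : c = c' := (mul_inv_eq_one.1 h2).symm
  exact ⟨mul_right_cancel (b := c) (by rw [h, hcc]), hcc⟩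

/-- `P` normalises `V ⊔ C`. -/
theorem Mate.conj_mem_sup [Finite G] (m : Mate V Q C) {p w : G} (hp : p ∈ cP V Q)
    (hw : w ∈ V ⊔ C) : p * w * p⁻¹ ∈ V ⊔ C := by
  obtain ⟨v, hv, c, hc, rfl⟩ := (m.mem_sup d).1 hw
  have hk := d.commutator_mem hp (m.le_cP d hc)
  refine (m.mem_sup d).2 ⟨v * ⁅p, c⁆, V.mul_mem hv hk, c, hc, ?_⟩
  calc v * ⁅p, c⁆ * c = v * p * (c * p⁻¹) := by rw [commutatorElement_def]; group
    _ = p * v * (c * p⁻¹) := by rw [(mem_cP.1 hp).2 v hv]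
    _ = p * (v * c) * p⁻¹ := by group

theorem Mate.sup_le_cP [Finite G] (m : Mate V Q C) : V ⊔ C ≤ cP V Q :=
  sup_le d.v_le_cP (m.le_cP d)

/-- `C_P(C_P(C)) = V C`. -/
theorem Mate.mem_sup_of_commute [Finite G] (m : Mate V Q C) {x : G} (hx : x ∈ cP V Q)
    (hc : ∀ q ∈ cP V Q, (∀ c ∈ C, q * c = c * q) → x * q = q * x) : x ∈ V ⊔ C := by
  obtain ⟨D, mD, hD⟩ := m.exists_partner d
  have hxC : ∀ c ∈ C, x * c = c * x := fun c hcC =>
    hc c (m.le_cP d hcC) fun c' hc' => m.comm' d c hcC c' hc'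
  obtain ⟨z, hz, hz1⟩ := mD.ne_bot d
  obtain ⟨b, hb, hbe⟩ := mD.exists_commutator_eq d m
    (fun c hcC hc1 y hy hy1 h => hD y hy hy1 c hcC hc1 h.symm) hz hz1 ⁅x, z⁆
    (d.commutator_mem hx (mD.le_cP d hz))
  set y := x * b with hy
  have hyP : y ∈ cP V Q := (cP V Q).mul_mem hx (m.le_cP d hb)
  have hyz : y * z = z * y := by
    rw [← commutatorElement_eq_one_iff_mul_comm, hy,
      d.commutator_mul_left hx (m.le_cP d hb) (mD.le_cP d hz), hbe]
    exact d.sq _ (d.commutator_mem hx (mD.le_cP d hz))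
  have hyD : ∀ e ∈ D, y * e = e * y := mD.commute_of_commute d hyP hz hz1 hyz
  have hyV : y ∈ V := by
    refine d.mem_of_central hyP fun p hp => ?_
    obtain ⟨c₁, hc₁, hc₁1⟩ := m.ne_bot d
    obtain ⟨e, he, hee⟩ := m.exists_commutator_eq d mD hD hc₁ hc₁1 ⁅p, c₁⁆
      (d.commutator_mem hp (m.le_cP d hc₁))
    have hpe : p * e ∈ cP V Q := (cP V Q).mul_mem hp (mD.le_cP d he)
    have hpec : (p * e) * c₁ = c₁ * (p * e) := by
      rw [← commutatorElement_eq_one_iff_mul_comm,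
        d.commutator_mul_left hp (mD.le_cP d he) (m.le_cP d hc₁), hee]
      exact d.sq _ (d.commutator_mem hp (m.le_cP d hc₁))
    have hq : y * (p * e) = (p * e) * y := by
      have h1 := hc _ hpe (m.commute_of_commute d hpe hc₁ hc₁1 hpec)
      have h2 := (m.commute_of_commute d hpe hc₁ hc₁1 hpec b hb).symm
      rw [hy, mul_assoc, h2, ← mul_assoc, h1, mul_assoc]
    calc y * p = y * (p * e) * e⁻¹ := by group
      _ = p * (e * y) * e⁻¹ := by rw [hq, mul_assoc p e y]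
      _ = p * (y * e) * e⁻¹ := by rw [hyD e he]
      _ = p * y := by group
  refine (m.mem_sup d).2 ⟨y, hyV, b, hb, ?_⟩
  rw [hy, mul_assoc, m.sq' d b hb, mul_one]

end Mate

theorem card_eq_of_maximal [Finite G] {X S : Subgroup G} (hSX : S ≤ X) (hS : IsPGroup 2 S)
    (hmax : ∀ T : Subgroup G, T ≤ X → IsPGroup 2 T → S ≤ T → T = S) :
    Nat.card S = 2 ^ (Nat.card X).factorization 2 := by
  haveI : Fact (Nat.Prime 2) := ⟨Nat.prime_two⟩
  obtain ⟨T, hT⟩ := (hS.comap_subtype (K := X)).exists_le_sylow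
  have h := hmax ((T : Subgroup X).map X.subtype) (Subgroup.map_subtype_le _) (T.2.map _)
    fun x hx => ⟨⟨x, hSX hx⟩, hT hx, rfl⟩
  rw [← h, Subgroup.card_map_of_injective X.subtype_injective, Sylow.card_eq_multiplicity]

theorem eq_one_of_odd_pgroup [Finite G] {Q : Subgroup G} (hQ : IsPGroup 2 Q) {y : G}
    (hy : y ∈ Q) (hodd : Odd (orderOf y)) : y = 1 := by
  haveI : Fact (Nat.Prime 2) := ⟨Nat.prime_two⟩
  obtain ⟨k, hk⟩ := IsPGroup.iff_orderOf.1 hQ ⟨y, hy⟩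
  rw [Subgroup.orderOf_mk] at hk
  rw [hk] at hodd
  rcases Nat.eq_zero_or_pos k with rfl | hk0
  · exact orderOf_eq_one_iff.1 (by rw [hk, pow_zero])
  · exact absurd hodd (Nat.not_odd_iff_even.2 ((Nat.even_pow).2 ⟨even_two, hk0.ne'⟩))

/-- The central step: a mate `C` is carried by an element that normalises `V C`. -/
theorem Mate.exists_swap [Finite G] (d : TIData V Q) (m : Mate V Q C) :
    ∃ h : G, cj h V = C ∧ cj h (V ⊔ C) = V ⊔ C := by
  haveI : Fact (Nat.Prime 2) := ⟨Nat.prime_two⟩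
  obtain ⟨D, mD, hD⟩ := m.exists_partner d
  obtain ⟨a, ha⟩ := m.conj
  obtain ⟨b, hb, hb1⟩ := m.ne_bot d
  have haN : a ∉ Subgroup.normalizer (V : Set G) := fun h =>
    m.ne (ha.trans (mem_normalizer_iff_cj.1 h))
  set N := Subgroup.normalizer (V : Set G) with hN
  set NC := Subgroup.normalizer (C : Set G) with hNC
  have hcard : Nat.card NC = Nat.card N := by
    have e : N.map (MulAut.conj a).toMonoidHom = NC := by
      rw [hN, hNC, ha]
      exact Subgroup.map_equiv_normalizer_eq V (MulAut.conj a)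
    rw [← e, Subgroup.card_map_of_injective (MulAut.conj a).injective]
  let P0 : Subgroup G := cP V Q ⊓ Subgroup.centralizer (C : Set G)
  have hP0 : ∀ {q : G}, q ∈ P0 ↔ q ∈ cP V Q ∧ ∀ c ∈ C, q * c = c * q := by
    intro q
    simp only [P0, Subgroup.mem_inf, Subgroup.mem_centralizer_iff, SetLike.mem_coe]
    exact and_congr_right' ⟨fun h c hc => (h c hc).symm, fun h c hc => (h c hc).symm⟩
  have hP0M : P0 ≤ N ⊓ NC := fun q hq => by
    obtain ⟨h1, h2⟩ := hP0.1 hq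
    exact ⟨d.cP_le_normalizer h1, mem_normalizer_iff_cj.2 (m.normalize d hb hb1 (h2 b hb))⟩
  obtain ⟨S, ⟨hSM, hS2, hP0S⟩, hSmax⟩ := (Set.toFinite {S : Subgroup G |
      S ≤ N ⊓ NC ∧ IsPGroup 2 S ∧ P0 ≤ S}).exists_maximal
    ⟨P0, hP0M, d.isPGroup.to_le (inf_le_left.trans inf_le_left), le_rfl⟩
  have hSmax' : ∀ T : Subgroup G, T ≤ N ⊓ NC → IsPGroup 2 T → S ≤ T → T = S := fun T h1 h2 h3 =>
    le_antisymm (hSmax ⟨h1, h2, hP0S.trans h3⟩ h3) h3
  -- `S` is not a maximal 2-subgroup of `N(C)`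
  obtain ⟨T, hTNC, hT2, hST, hTne⟩ :
      ∃ T : Subgroup G, T ≤ NC ∧ IsPGroup 2 T ∧ S ≤ T ∧ T ≠ S := by
    by_contra hno
    push Not at hno
    have h1 := card_eq_of_maximal (hSM.trans inf_le_right) hS2 hno
    have hSQ : IsPGroup 2 ↥(S ⊔ Q) := by
      refine IsPGroup.to_sup_of_normal_right' hS2 d.isPGroup fun s hs => ?_
      rw [Subgroup.mem_normalizer_iff]
      exact fun q => ⟨d.normal s (hSM hs).1 q, fun hq => by
        have := d.normal s⁻¹ (inv_mem (hSM hs).1) _ hq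
        simpa [mul_assoc] using this⟩
    have hle : S ⊔ Q ≤ N := sup_le (hSM.trans inf_le_left) d.le_normalizer
    obtain ⟨k, hk⟩ := IsPGroup.iff_card.1 hSQ
    have hdvd : 2 ^ k ∣ Nat.card N := hk ▸ Subgroup.card_dvd_of_le hle
    have hkle : k ≤ (Nat.card N).factorization 2 :=
      (Nat.Prime.pow_dvd_iff_le_factorization Nat.prime_two Nat.card_pos.ne').1 hdvd
    have hEq : S = S ⊔ Q := Subgroup.eq_of_le_of_card_ge le_sup_left (by
      rw [hk, h1, hcard]; exact Nat.pow_le_pow_right two_pos hkle)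
    obtain ⟨z, hz, hz1⟩ := mD.ne_bot d
    have hzS : z ∈ NC := (hSM (hEq ▸ (le_sup_right (a := S)) (mD.le hz))).2
    exact hD z hz hz1 b hb hb1
      (m.commute_of_normalize d (mD.le_cP d hz) (mem_normalizer_iff_cj.1 hzS) b hb)
  obtain ⟨t, htT, htS, htn⟩ : ∃ t ∈ T, t ∉ S ∧ t ∈ Subgroup.normalizer (S : Set G) := by
    haveI : Group.IsNilpotent T := hT2.isNilpotent
    have hlt : S.subgroupOf T < ⊤ := lt_top_iff_ne_top.2 fun h =>
      hTne (le_antisymm (fun x hx => by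
        have : (⟨x, hx⟩ : T) ∈ S.subgroupOf T := h ▸ Subgroup.mem_top _
        exact this) hST)
    obtain ⟨t, ht, htn⟩ := SetLike.exists_of_lt
      (Group.normalizerCondition_of_isNilpotent (G := T) _ hlt)
    refine ⟨t, t.2, fun h => htn h, ?_⟩
    rw [Subgroup.mem_normalizer_iff]
    intro x
    constructor
    · intro hx
      exact ((Subgroup.mem_normalizer_iff.1 ht) ⟨x, hST hx⟩).1 hx
    · intro hx
      have hxT : x ∈ T := by
        have h1 : (t : G)⁻¹ * ((t : G) * x * (t : G)⁻¹) * t ∈ T :=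
          T.mul_mem (T.mul_mem (T.inv_mem t.2) (hST hx)) t.2
        rwa [show (t : G)⁻¹ * ((t : G) * x * (t : G)⁻¹) * t = x by group] at h1
      exact ((Subgroup.mem_normalizer_iff.1 ht) ⟨x, hxT⟩).2 hx
  have htN : t ∉ N := by
    intro htN
    apply htS
    have hle : S ≤ T ⊓ (N ⊓ NC) := le_inf hST hSM
    rw [← hSmax' (T ⊓ (N ⊓ NC)) inf_le_right (hT2.to_le inf_le_left) hle]
    exact ⟨htT, htN, hTNC htT⟩
  have htC : cj t C = C := mem_normalizer_iff_cj.1 (hTNC htT)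
  have hVS : V ≤ S := fun v hv => hP0S (hP0.2 ⟨d.v_le_cP hv, fun c hc => m.commute d v hv c hc⟩)
  set U := cj t V with hU
  have hUV : U ≠ V := fun h => htN (mem_normalizer_iff_cj.2 h)
  have hdisj : ∀ u ∈ U, u ∈ V → u = 1 := by
    intro u hu huV
    by_contra hne
    exact hUV ((d.ti_eq hu (TIData.v_eq_cj_one (V := V) ▸ huV) hne).trans (cj_one V))
  have hUS : U ≤ S := by
    rintro _ ⟨v, hv, rfl⟩
    exact (Subgroup.mem_normalizer_iff.1 htn v).1 (hVS hv)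
  have hUC : ∀ u ∈ U, ∀ c ∈ C, u * c = c * u := by
    rintro _ ⟨v, hv, rfl⟩ c hc
    rw [← htC] at hc
    obtain ⟨c', hc', rfl⟩ := hc
    rw [← map_mul, ← map_mul, m.commute d v hv c' hc']
  have hSU : ∀ s ∈ S, ∀ u ∈ U, s * u * s⁻¹ ∈ U := by
    rintro s hs _ ⟨v, hv, rfl⟩
    refine ⟨(t⁻¹ * s * t) * v * (t⁻¹ * s * t)⁻¹, ?_, by simp only [MulEquiv.coe_toMonoidHom, MulAut.conj_apply]; group⟩
    have hs' : t⁻¹ * s * t ∈ S := by
      have := (Subgroup.mem_normalizer_iff.1 (inv_mem htn) s).1 hs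
      simpa using this
    exact (Subgroup.mem_normalizer_iff.1 (hSM hs').1 v).1 hv
  have hUcV : ∀ u ∈ U, ∀ v ∈ V, u * v = v * u := by
    intro u hu v hv
    rw [← commutatorElement_eq_one_iff_mul_comm]
    refine hdisj _ ?_ ?_ <;> rw [commutatorElement_def]
    · rw [show u * v * u⁻¹ * v⁻¹ = u * (v * u⁻¹ * v⁻¹) by group]
      exact U.mul_mem hu (hSU v (hVS hv) _ (U.inv_mem hu))
    · exact V.mul_mem ((Subgroup.mem_normalizer_iff.1 (hSM (hUS hu)).1 v).1 hv) (V.inv_mem hv)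
  by_cases hcase : ∃ w ∈ U, w ∈ V ⊔ C ∧ w ≠ 1
  · obtain ⟨w, hwU, hwW, hw1⟩ := hcase
    obtain ⟨v, hv, c, hc, rfl⟩ := (m.mem_sup d).1 hwW
    have hc1 : c ≠ 1 := fun h => hw1 (by
      have := hdisj v (by simpa [h] using hwU) hv
      rw [this, h, mul_one])
    obtain ⟨p, hp, hpe⟩ := m.exists_conj d hc hc1 hv
    have hpw : v * c ∈ cj p C := hpe ▸ conj_mem_cj hc
    have hUeq : U = cj p C := by
      rw [hU, ha, cj_cj]
      exact d.ti_eq hwU (by rw [← cj_cj, ← ha]; exact hpw) hw1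
    have hUW : U ≤ V ⊔ C := by
      rw [hUeq]
      rintro _ ⟨x, hx, rfl⟩
      exact m.conj_mem_sup d hp (Subgroup.mem_sup_right hx)
    refine ⟨p⁻¹ * t, ?_, ?_⟩
    · rw [← cj_cj, ← hU, hUeq, cj_inv_cj]
    · have h1 : cj t (V ⊔ C) ≤ V ⊔ C := by
        rw [cj, Subgroup.map_sup]
        exact sup_le hUW (le_of_eq_of_le htC le_sup_right)
      have h2 : cj p⁻¹ (V ⊔ C) ≤ V ⊔ C := by
        rintro _ ⟨x, hx, rfl⟩
        exact m.conj_mem_sup d ((cP V Q).inv_mem hp) hx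
      apply Subgroup.eq_of_le_of_card_ge
      · rw [← cj_cj]
        exact (Subgroup.map_mono h1).trans h2
      · rw [Subgroup.card_map_of_injective (MulAut.conj (p⁻¹ * t)).injective]
  exfalso
  push Not at hcase
  have hUP : ∀ u ∈ U, u ∈ cP V Q → u = 1 := by
    intro u hu huP
    refine hcase u hu (m.mem_sup_of_commute d huP fun q hq hqC => ?_)
    rw [← commutatorElement_eq_one_iff_mul_comm]
    refine hdisj _ ?_ (d.commutator_mem huP hq)
    rw [commutatorElement_def, show u * q * u⁻¹ * q⁻¹ = u * (q * u⁻¹ * q⁻¹) by group]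
    exact U.mul_mem hu (hSU q (hP0S (hP0.2 ⟨hq, hqC⟩)) _ (U.inv_mem hu))
  have hUP0 : ∀ u ∈ U, ∀ q ∈ P0, u * q = q * u := by
    intro u hu q hq
    rw [← commutatorElement_eq_one_iff_mul_comm]
    refine hUP _ ?_ ?_ <;> rw [commutatorElement_def]
    · rw [show u * q * u⁻¹ * q⁻¹ = u * (q * u⁻¹ * q⁻¹) by group]
      exact U.mul_mem hu (hSU q (hP0S hq) _ (U.inv_mem hu))
    · exact (cP V Q).mul_mem (d.cP_normal u (hSM (hUS hu)).1 q (hP0.1 hq).1)
        ((cP V Q).inv_mem (hP0.1 hq).1)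
  have hUK : ∀ u ∈ U, ∀ p ∈ cP V Q, ⁅u, p⁆ ∈ V := by
    intro u hu p hp
    by_cases hpP0 : p ∈ P0
    · rw [commutatorElement_eq_one_iff_mul_comm.2 (hUP0 u hu p hpP0)]; exact V.one_mem
    have hkP : ⁅u, p⁆ ∈ cP V Q := by
      rw [commutatorElement_def]
      exact (cP V Q).mul_mem (d.cP_normal u (hSM (hUS hu)).1 p hp) ((cP V Q).inv_mem hp)
    have hkW : ⁅u, p⁆ ∈ V ⊔ C := by
      refine m.mem_sup_of_commute d hkP fun q hq hqC => ?_
      have hq' : p⁻¹ * q * p ∈ P0 := by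
        have e : p⁻¹ * q * p = ⁅p⁻¹, q⁆ * q := by rw [commutatorElement_def]; group
        rw [e]
        exact P0.mul_mem (hP0.2 ⟨d.v_le_cP (d.commutator_mem ((cP V Q).inv_mem hp) hq),
          fun c hc => m.commute d _ (d.commutator_mem ((cP V Q).inv_mem hp) hq) c hc⟩)
          (hP0.2 ⟨hq, hqC⟩)
      have h2 := hUP0 u hu _ hq'
      have h3 := hUP0 u hu q (hP0.2 ⟨hq, hqC⟩)
      rw [commutatorElement_def]
      calc u * p * u⁻¹ * p⁻¹ * q = u * p * u⁻¹ * (p⁻¹ * q * p) * p⁻¹ := by group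
        _ = u * p * ((p⁻¹ * q * p) * u⁻¹) * p⁻¹ := by
            rw [mul_assoc (u * p) u⁻¹, (Commute.inv_left (h2 : Commute u _)).eq]
        _ = (u * q) * (p * u⁻¹ * p⁻¹) := by group
        _ = (q * u) * (p * u⁻¹ * p⁻¹) := by rw [h3]
        _ = q * (u * p * u⁻¹ * p⁻¹) := by group
    obtain ⟨v, hv, c, hc, hvc⟩ := (m.mem_sup d).1 hkW
    by_contra hk
    have hc1 : c ≠ 1 := fun h => hk (by rw [← hvc, h, mul_one]; exact hv)
    apply hpP0
    refine hP0.2 ⟨hp, m.commute_of_commute d hp hc hc1 ?_⟩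
    have hksq : ⁅u, p⁆ * ⁅u, p⁆ = 1 := by
      rw [← hvc, mul_assoc v c, ← mul_assoc c, ← m.commute d v hv c hc, mul_assoc v c c,
        m.sq' d c hc, mul_one, d.sq v hv]
    have hup : ⁅u, p⁆ * p * (⁅u, p⁆ * p) = p * p := by
      calc ⁅u, p⁆ * p * (⁅u, p⁆ * p) = u * (p * p) * u⁻¹ := by rw [commutatorElement_def]; group
        _ = p * p := by rw [hUcV u hu _ (d.sq_mem hp), mul_inv_cancel_right]
    have hkp : ⁅u, p⁆ * p = p * ⁅u, p⁆ := by
      calc ⁅u, p⁆ * p = ⁅u, p⁆ * p * (⁅u, p⁆ * p) * p⁻¹ * (⁅u, p⁆)⁻¹ := by group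
        _ = p * (⁅u, p⁆)⁻¹ := by rw [hup, mul_inv_cancel_right]
        _ = p * ⁅u, p⁆ := by rw [inv_eq_self_of_sq hksq]
    rw [← hvc] at hkp
    refine mul_left_cancel (a := v) ?_
    calc v * (p * c) = p * (v * c) := by rw [← mul_assoc, (mem_cP.1 hp).2 v hv, mul_assoc]
      _ = v * c * p := hkp.symm
      _ = v * (c * p) := mul_assoc _ _ _
  let K : Subgroup G :=
    { carrier := {x | x ∈ N ∧ (∀ v ∈ V, x * v = v * x) ∧ ∀ p ∈ cP V Q, ⁅x, p⁆ ∈ V}
      one_mem' := ⟨N.one_mem, fun v _ => by rw [one_mul, mul_one], fun p _ => by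
        rw [commutatorElement_one_left]; exact V.one_mem⟩
      mul_mem' := by
        rintro x y ⟨hx1, hx2, hx3⟩ ⟨hy1, hy2, hy3⟩
        refine ⟨N.mul_mem hx1 hy1, fun v hv => by
          rw [mul_assoc, hy2 v hv, ← mul_assoc, hx2 v hv, mul_assoc], fun p hp => ?_⟩
        rw [show ⁅x * y, p⁆ = x * ⁅y, p⁆ * (p * x⁻¹ * p⁻¹) by
            simp only [commutatorElement_def]; group, hx2 _ (hy3 p hp),
          show ⁅y, p⁆ * x * (p * x⁻¹ * p⁻¹) = ⁅y, p⁆ * ⁅x, p⁆ by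
            rw [commutatorElement_def x p]; group]
        exact V.mul_mem (hy3 p hp) (hx3 p hp)
      inv_mem' := by
        rintro x ⟨hx1, hx2, hx3⟩
        refine ⟨N.inv_mem hx1, fun v hv => (Commute.inv_left (hx2 v hv : Commute x v)).eq,
          fun p hp => ?_⟩
        rw [show ⁅x⁻¹, p⁆ = x⁻¹ * (⁅x, p⁆)⁻¹ * x by simp only [commutatorElement_def]; group,
          mul_assoc, ← hx2 _ (V.inv_mem (hx3 p hp)), inv_mul_cancel_left]
        exact V.inv_mem (hx3 p hp) }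
  have hKn : ∀ n ∈ N, ∀ x ∈ K, n * x * n⁻¹ ∈ K := by
    rintro n hn x ⟨hx1, hx2, hx3⟩
    refine ⟨N.mul_mem (N.mul_mem hn hx1) (N.inv_mem hn), fun v hv => ?_, fun p hp => ?_⟩
    · have hv' : n⁻¹ * v * n ∈ V := mem_cj.1 ((mem_normalizer_iff_cj.1 hn).symm ▸ hv)
      calc n * x * n⁻¹ * v = n * (x * (n⁻¹ * v * n)) * n⁻¹ := by group
        _ = n * ((n⁻¹ * v * n) * x) * n⁻¹ := by rw [hx2 _ hv']
        _ = v * (n * x * n⁻¹) := by group
    · have hp' : n⁻¹ * p * n ∈ cP V Q := by simpa using d.cP_normal n⁻¹ (inv_mem hn) p hp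
      have h := (Subgroup.mem_normalizer_iff.1 hn _).1 (hx3 _ hp')
      rwa [show n * ⁅x, n⁻¹ * p * n⁆ * n⁻¹ = ⁅n * x * n⁻¹, p⁆ by
        simp only [commutatorElement_def]; group] at h
  have hK2 : IsPGroup 2 K := by
    intro x
    obtain ⟨k, m', hm', hord⟩ :=
      Nat.exists_eq_two_pow_mul_odd (isOfFinOrder_of_finite (x : G)).orderOf_pos.ne'
    refine ⟨k, Subtype.ext ?_⟩
    rw [Subgroup.coe_pow, Subgroup.coe_one]
    set y := (x : G) ^ 2 ^ k with hy
    obtain ⟨hy1, hy2, hy3⟩ : y ∈ K := K.pow_mem x.2 _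
    have hyodd : Odd (orderOf y) := by
      refine Odd.of_dvd_nat hm' (orderOf_dvd_of_pow_eq_one ?_)
      rw [hy, ← pow_mul, ← hord, pow_orderOf_eq_one]
    have hcop : ∀ z ∈ V, (orderOf y).Coprime (orderOf z) := fun z hz =>
      (Nat.coprime_two_right.2 hyodd).coprime_dvd_right
        (orderOf_dvd_of_pow_eq_one (by rw [pow_two]; exact d.sq z hz))
    have hyP : ∀ p ∈ cP V Q, y * p = p * y := fun p hp =>
      CfsgLib.Coprime.commute_of_commute_commutator (hy2 _ (hy3 p hp)) (hcop _ (hy3 p hp))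
    have hyQ : ∀ q ∈ Q, y * q = q * y := by
      intro q hq
      have hkP : y * q * y⁻¹ * q⁻¹ ∈ cP V Q := by
        refine mem_cP.2 ⟨Q.mul_mem (d.normal y hy1 q hq) (Q.inv_mem hq), fun v hv => ?_⟩
        have hv' : q⁻¹ * v * q ∈ V :=
          mem_cj.1 ((mem_normalizer_iff_cj.1 (d.le_normalizer hq)).symm ▸ hv)
        calc v * (y * q * y⁻¹ * q⁻¹) = (v * y) * q * y⁻¹ * q⁻¹ := by group
          _ = (y * v) * q * y⁻¹ * q⁻¹ := by rw [hy2 v hv]
          _ = y * q * ((q⁻¹ * v * q) * y⁻¹) * q⁻¹ := by group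
          _ = y * q * (y⁻¹ * (q⁻¹ * v * q)) * q⁻¹ := by
              rw [(Commute.inv_left (hy2 _ hv' : Commute y _)).eq]
          _ = y * q * y⁻¹ * q⁻¹ * v := by group
      have hkc : ∀ p ∈ cP V Q, y * q * y⁻¹ * q⁻¹ * p = p * (y * q * y⁻¹ * q⁻¹) := by
        intro p hp
        have hp' : q⁻¹ * p * q ∈ cP V Q := by
          simpa using d.cP_normal q⁻¹ (inv_mem (d.le_normalizer hq)) p hp
        calc y * q * y⁻¹ * q⁻¹ * p = y * q * (y⁻¹ * (q⁻¹ * p * q)) * q⁻¹ := by group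
          _ = y * q * ((q⁻¹ * p * q) * y⁻¹) * q⁻¹ := by
              rw [(Commute.inv_left (hyP _ hp' : Commute y _)).eq]
          _ = (y * p) * q * y⁻¹ * q⁻¹ := by group
          _ = (p * y) * q * y⁻¹ * q⁻¹ := by rw [hyP p hp]
          _ = p * (y * q * y⁻¹ * q⁻¹) := by group
      have hkV := d.mem_of_central hkP hkc
      exact CfsgLib.Coprime.commute_of_commute_commutator (hy2 _ hkV) (hcop _ hkV)
    exact eq_one_of_odd_pgroup d.isPGroup (d.cent y hy1 hyQ) hyodd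
  have hKQ : K ≤ Q := d.largest K (fun x hx => hx.1) hKn hK2
  apply hUV
  have htriv : ∀ u ∈ U, u = 1 := fun u hu =>
    hUP u hu (mem_cP.2 ⟨hKQ (show u ∈ K from ⟨(hSM (hUS hu)).1, hUcV u hu, hUK u hu⟩),
      fun v hv => (hUcV u hu v hv).symm⟩)
  obtain ⟨z, hz, hz1⟩ := m.ne_bot d
  rw [ha] at hz
  obtain ⟨v, hv, rfl⟩ := hz
  have h1 : t * v * t⁻¹ = 1 := htriv _ (conj_mem_cj hv)
  exact absurd (by rw [show v = 1 by rwa [mul_inv_eq_one, mul_eq_left] at h1, map_one]) hz1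

section Swap

variable [Finite G] (d : TIData V Q) (m : Mate V Q C) {h : G} (hC : cj h V = C)
  (hW : cj h (V ⊔ C) = V ⊔ C)
include d m hC hW

theorem Mate.swap_mate : Mate V Q (cj h⁻¹ V) := by
  refine ⟨⟨h⁻¹, rfl⟩, ?_, fun heq => m.ne ?_⟩
  · refine (Subgroup.map_mono (le_sup_left (b := C))).trans ?_
    show cj h⁻¹ (V ⊔ C) ≤ Q
    rw [show cj h⁻¹ (V ⊔ C) = V ⊔ C by
      conv_lhs => rw [← hW]
      rw [cj_inv_cj]]
    exact (m.sup_le_cP d).trans inf_le_left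
  · rw [← hC]
    conv_lhs => rw [← heq]
    rw [cj_cj_inv]

/-- For `v ∈ V#` the group `P^h` carries `v` to every element of `v C`. -/
theorem Mate.exists_conj_swap {v b : G} (hv : v ∈ V) (hv1 : v ≠ 1) (hb : b ∈ C) :
    ∃ r ∈ cj h (cP V Q), r * v * r⁻¹ = b * v := by
  have hv' : h⁻¹ * v * h ∈ cj h⁻¹ V := by
    simpa using conj_mem_cj (x := h⁻¹) hv
  have hv'1 : h⁻¹ * v * h ≠ 1 := fun he => hv1 (by
    calc v = h * (h⁻¹ * v * h) * h⁻¹ := by group
      _ = 1 := by rw [he, mul_one, mul_inv_cancel])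
  have hb' : h⁻¹ * b * h ∈ V := mem_cj.1 (hC.symm ▸ hb)
  obtain ⟨p, hp, hpe⟩ := (m.swap_mate d hC hW).exists_conj d hv' hv'1 hb'
  refine ⟨h * p * h⁻¹, conj_mem_cj hp, ?_⟩
  calc h * p * h⁻¹ * v * (h * p * h⁻¹)⁻¹ = h * (p * (h⁻¹ * v * h) * p⁻¹) * h⁻¹ := by group
    _ = b * v := by rw [hpe]; group

/-- `N(V)` is transitive on `V#`. -/
theorem Mate.exists_normalizer_conj {v v' : G} (hv : v ∈ V) (hv1 : v ≠ 1) (hv' : v' ∈ V)
    (hv'1 : v' ≠ 1) : ∃ n ∈ Subgroup.normalizer (V : Set G), n * v * n⁻¹ = v' := by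
  obtain ⟨b, hb, hb1⟩ := m.ne_bot d
  obtain ⟨r₁, -, h₁⟩ := m.exists_conj_swap d hC hW hv hv1 hb
  obtain ⟨r₂, -, h₂⟩ := m.exists_conj_swap d hC hW hv' hv'1 hb
  obtain ⟨p, hp, hpe⟩ := m.exists_conj d hb hb1 (V.mul_mem hv hv')
  have hpb : p * (b * v) * p⁻¹ = b * v' := by
    have hpv : p * v * p⁻¹ = v := by rw [← (mem_cP.1 hp).2 v hv, mul_inv_cancel_right]
    calc p * (b * v) * p⁻¹ = (p * b * p⁻¹) * (p * v * p⁻¹) := by group
      _ = v * (v' * b) * v := by rw [hpe, hpv, mul_assoc v v' b]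
      _ = v * (b * v') * v := by rw [m.commute d v' hv' b hb]
      _ = (v * b) * (v' * v) := by group
      _ = (b * v) * (v * v') := by rw [m.commute d v hv b hb, d.comm v' hv' v hv]
      _ = b * (v * v) * v' := by group
      _ = b * v' := by rw [d.sq v hv, mul_one]
  have hn : r₂⁻¹ * p * r₁ * v * (r₂⁻¹ * p * r₁)⁻¹ = v' := by
    calc r₂⁻¹ * p * r₁ * v * (r₂⁻¹ * p * r₁)⁻¹ = r₂⁻¹ * (p * (r₁ * v * r₁⁻¹) * p⁻¹) * r₂ := by group
      _ = r₂⁻¹ * (r₂ * v' * r₂⁻¹) * r₂ := by rw [h₁, hpb, h₂]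
      _ = v' := by group
  refine ⟨_, mem_normalizer_iff_cj.2 ?_, hn⟩
  exact (d.ti_eq (hn ▸ conj_mem_cj hv) (TIData.v_eq_cj_one (V := V) ▸ hv') hv'1).trans (cj_one V)

/-- `P = Q`. -/
theorem Mate.cP_eq : cP V Q = Q := by
  refine le_antisymm inf_le_left fun q hq => mem_cP.2 ⟨hq, fun v hv => ?_⟩
  by_cases hv1 : v = 1
  · rw [hv1, one_mul, mul_one]
  haveI : (V.subgroupOf Q).Normal := by
    refine ⟨fun x hx y => ?_⟩
    rw [Subgroup.mem_subgroupOf] at hx ⊢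
    exact (Subgroup.mem_normalizer_iff.1 (d.le_normalizer y.2) _).1 hx
  have hne : V.subgroupOf Q ≠ ⊥ := fun hbot => hv1 (by
    have hmem : (⟨v, d.vle hv⟩ : Q) ∈ V.subgroupOf Q := hv
    rw [hbot] at hmem
    exact congrArg Subtype.val (Subgroup.mem_bot.1 hmem))
  obtain ⟨y, hy, hy1, hyc⟩ := Cfsg.Agent.S1782.exists_central_mem d.isPGroup _ hne
  obtain ⟨n, hn, hne'⟩ := m.exists_normalizer_conj d hC hW hy
    (fun h => hy1 (Subtype.ext h)) hv hv1
  replace hne' : n * (y : G) * n⁻¹ = v := hne'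
  have hq' : n⁻¹ * q * n ∈ Q := by simpa using d.normal n⁻¹ (inv_mem hn) q hq
  have hc : n⁻¹ * q * n * (y : G) = y * (n⁻¹ * q * n) := congrArg Subtype.val (hyc ⟨_, hq'⟩)
  calc v * q = n * ((y : G) * (n⁻¹ * q * n)) * n⁻¹ := by rw [← hne']; group
    _ = n * (n⁻¹ * q * n * y) * n⁻¹ := by rw [hc]
    _ = q * v := by rw [← hne']; group

end Swap

end CfsgLib.Timmesfeld
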