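import Mathlib

/-!
Jordan-closed additive subgroups of units in a finite ring of characteristic two are commutative.

This is the algebra behind the recognition of `SL₂(q)` from a quadratic action: if `S` is an additive
subgroup of a finite ring, `1 ∈ S`, `a b a ∈ S` for `a, b ∈ S` and all nonzero members of `S` are
units, then the members of `S` commute pairwise.
-/

set_option autoImplicit false
set_option linter.style.haveILetI false
set_option linter.unusedSectionVars false

universe u v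

namespace CfsgLib.Timmesfeld

open Finset

variable {R : Type u} [Ring R]

/-- An additive subgroup closed under `a, b ↦ a b a`, with invertible nonzero members. -/
structure JordanSet (S : AddSubgroup R) : Prop where
  two : (1 : R) + 1 = 0
  one_mem : (1 : R) ∈ S
  jordan : ∀ a ∈ S, ∀ b ∈ S, a * b * a ∈ S
  unit : ∀ a ∈ S, a ≠ 0 → IsUnit a

theorem two_add_self (h : (1 : R) + 1 = 0) (a : R) : a + a = 0 := by
  rw [← two_mul, ← one_add_one_eq_two, h, zero_mul]

theorem two_eq_of_add (h : (1 : R) + 1 = 0) {a b : R} (hab : a + b = 0) : a = b := by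
  rw [eq_neg_of_add_eq_zero_left hab, neg_eq_iff_add_eq_zero, two_add_self h]

theorem charTwo_of_hom [Nontrivial R] {L : Type v} [Field L] (two : (1 : R) + 1 = 0) (g : L →+* R) :
    CharP L 2 :=
  CharTwo.of_one_ne_zero_of_two_eq_zero one_ne_zero
    (g.injective (by rw [map_ofNat, map_zero, ← one_add_one_eq_two, two]))

section Field

variable {L : Type v} [Field L] [Fintype L] [CharP L 2]

theorem exists_sqrt (a : L) : ∃ b : L, b * b = a := by
  obtain ⟨b, hb⟩ := (Finite.injective_iff_surjective).1 (frobenius_inj L 2) a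
  exact ⟨b, by rw [← hb, frobenius_def, pow_two]⟩

theorem mul_self_injective {a b : L} (h : a * a = b * b) : a = b :=
  frobenius_inj L 2 (by simp only [frobenius_def, pow_two, h])

theorem card_units_cast [DecidableEq L] : (Fintype.card Lˣ : L) = 1 := by
  rw [Fintype.card_units, Nat.cast_sub Fintype.card_pos, Nat.cast_card_eq_zero, zero_sub,
    CharTwo.neg_eq, Nat.cast_one]

theorem sum_twist_self [Fintype Lˣ] (φ : RingAut L) :
    ∑ t : Lˣ, φ (t : L) * (φ (t : L))⁻¹ = 1 := by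
  classical
  have : ∀ t : Lˣ, φ (t : L) * (φ (t : L))⁻¹ = 1 := fun t =>
    mul_inv_cancel₀ (by simp [t.ne_zero])
  simp only [this, Finset.sum_const, nsmul_one, Finset.card_univ]
  convert card_units_cast (L := L)

theorem sum_twist_ne [Fintype Lˣ] {φ ψ : RingAut L} (h : φ ≠ ψ) :
    ∑ t : Lˣ, φ (t : L) * (ψ (t : L))⁻¹ = 0 := by
  classical
  let χ : Lˣ →* L :=
    { toFun := fun t => φ (t : L) * (ψ (t : L))⁻¹
      map_one' := by simp
      map_mul' := fun a b => by simp only [Units.val_mul, map_mul, mul_inv]; ring }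
  have hχ : χ ≠ 1 := by
    intro hχ
    refine h (RingEquiv.ext fun a => ?_)
    by_cases ha : a = 0
    · simp [ha]
    have h1 : φ a * (ψ a)⁻¹ = 1 := DFunLike.congr_fun hχ (Units.mk0 a ha)
    exact (mul_inv_eq_one₀ (by simp [ha])).1 h1
  exact sum_hom_units_eq_zero χ hχ

theorem sum_aut_zero_or_one [Fintype (RingAut L)] (a : L) :
    (∑ φ : RingAut L, φ a) = 0 ∨ (∑ φ : RingAut L, φ a) = 1 := by
  let F : RingAut L := RingEquiv.ofBijective (frobenius L 2)
    ⟨frobenius_inj L 2, (Finite.injective_iff_surjective).1 (frobenius_inj L 2)⟩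
  set s := ∑ φ : RingAut L, φ a
  have h1 : F s = s := by
    rw [show F s = ∑ φ : RingAut L, F (φ a) from map_sum F _ _]
    exact Fintype.sum_equiv (Equiv.mulLeft F) _ _ (fun φ => rfl)
  have h2 : s * s = s := by
    have : s ^ 2 = s := h1
    rwa [pow_two] at this
  by_cases hs : s = 0
  · exact Or.inl hs
  · exact Or.inr (mul_left_cancel₀ hs (by rw [h2, mul_one]))

end Field

/-- `y k = φ(k) y` for all scalars `k`. -/
def IsSemi {L : Type v} [Field L] (g : L →+* R) (φ : RingAut L) (y : R) : Prop :=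
  ∀ k : L, y * g k = g (φ k) * y

section Semi

variable {L : Type v} [Field L] {g : L →+* R} {φ ψ : RingAut L} {a b : R}

theorem IsSemi.mul (ha : IsSemi g φ a) (hb : IsSemi g ψ b) : IsSemi g (φ * ψ) (a * b) := by
  intro k
  rw [mul_assoc, hb k, ← mul_assoc, ha (ψ k), mul_assoc]
  rfl

theorem isSemi_scalar (k : L) : IsSemi g 1 (g k) := fun l => by
  rw [← map_mul, mul_comm, map_mul]; rfl

theorem isSemi_one : IsSemi g 1 (1 : R) := fun l => by
  rw [one_mul, mul_one]; rfl

theorem IsSemi.pow (ha : IsSemi g φ a) : ∀ n : ℕ, IsSemi g (φ ^ n) (a ^ n)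
  | 0 => by simpa only [pow_zero] using isSemi_one
  | n + 1 => by simpa only [pow_succ] using (ha.pow n).mul ha

theorem IsSemi.add (ha : IsSemi g φ a) (hb : IsSemi g φ b) : IsSemi g φ (a + b) := fun k => by
  rw [add_mul, ha k, hb k, mul_add]

theorem IsSemi.smul (ha : IsSemi g φ a) (k : L) : IsSemi g φ (g k * a) := fun l => by
  rw [mul_assoc, ha l, ← mul_assoc, ← map_mul, mul_comm, map_mul, mul_assoc]

theorem IsSemi.comm (ha : IsSemi g 1 a) (k : L) : a * g k = g k * a := ha k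

theorem eq_zero_of_scalar_mul {k : L} (hk : g k * a = 0) (ha : a ≠ 0) : k = 0 := by
  by_contra h
  apply ha
  calc a = g (k⁻¹ * k) * a := by rw [inv_mul_cancel₀ h, map_one, one_mul]
    _ = g k⁻¹ * (g k * a) := by rw [map_mul, mul_assoc]
    _ = 0 := by rw [hk, mul_zero]

end Semi

section Comp

variable {L : Type v} [Field L] [Fintype L] [CharP L 2] (g : L →+* R)

open scoped Classical in
/-- The `φ`-semilinear component. -/
noncomputable def comp (φ : RingAut L) (x : R) : R :=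
  ∑ t : Lˣ, g (φ (t : L)) * x * g (t : L)⁻¹

variable {g}

omit [CharP L 2] in
theorem comp_add (φ : RingAut L) (x y : R) : comp g φ (x + y) = comp g φ x + comp g φ y := by
  simp only [comp, mul_add, add_mul, Finset.sum_add_distrib]

omit [CharP L 2] in
theorem comp_zero (φ : RingAut L) : comp g φ 0 = 0 := by simp [comp]

omit [CharP L 2] in
theorem comp_semi (φ : RingAut L) (x : R) : IsSemi g φ (comp g φ x) := by
  classical
  intro k
  by_cases hk : k = 0
  · simp [hk]
  simp only [comp, Finset.sum_mul, Finset.mul_sum]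
  refine (Fintype.sum_equiv (Equiv.mulLeft (Units.mk0 k hk)) _ _ fun t => ?_).symm
  have e : (((Equiv.mulLeft (Units.mk0 k hk)) t : Lˣ) : L)⁻¹ * k = (t : L)⁻¹ := by
    simp only [Equiv.coe_mulLeft, Units.val_mul, Units.val_mk0, mul_inv]
    rw [mul_right_comm, inv_mul_cancel₀ hk, one_mul]
  rw [mul_assoc (g (φ ((Equiv.mulLeft (Units.mk0 k hk) t : Lˣ) : L)) * x), ← map_mul, e]
  simp only [Equiv.coe_mulLeft, Units.val_mul, Units.val_mk0, map_mul, mul_assoc]

theorem comp_self {φ : RingAut L} {y : R} (hy : IsSemi g φ y) : comp g φ y = y := by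
  classical
  have : ∀ t : Lˣ, g (φ (t : L)) * y * g (t : L)⁻¹ = g (φ (t : L) * (φ (t : L))⁻¹) * y := by
    intro t
    rw [mul_assoc, hy, ← mul_assoc, ← map_mul, map_inv₀ φ]
  simp only [comp, this, ← Finset.sum_mul, ← map_sum, sum_twist_self, map_one, one_mul]

theorem comp_ne {φ ψ : RingAut L} {y : R} (hy : IsSemi g ψ y) (h : φ ≠ ψ) : comp g φ y = 0 := by
  classical
  have : ∀ t : Lˣ, g (φ (t : L)) * y * g (t : L)⁻¹ = g (φ (t : L) * (ψ (t : L))⁻¹) * y := by
    intro t
    rw [mul_assoc, hy, ← mul_assoc, ← map_mul, map_inv₀ ψ]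
  simp only [comp, this, ← Finset.sum_mul, ← map_sum, sum_twist_ne h, map_zero, zero_mul]

theorem sum_comp [Fintype (RingAut L)] (x : R) : ∑ φ : RingAut L, comp g φ x = x := by
  classical
  have hcomm : ∀ a : L, g (∑ φ : RingAut L, φ a) * x = x * g (∑ φ : RingAut L, φ a) := by
    intro a
    rcases sum_aut_zero_or_one a with h | h <;> simp [h]
  calc ∑ φ : RingAut L, comp g φ x
      = ∑ t : Lˣ, ∑ φ : RingAut L, g (φ (t : L)) * x * g (t : L)⁻¹ := Finset.sum_comm
    _ = ∑ t : Lˣ, x * g (∑ φ : RingAut L, φ (t : L) * (t : L)⁻¹) := by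
      refine Finset.sum_congr rfl fun t _ => ?_
      rw [← Finset.sum_mul, ← Finset.sum_mul, ← map_sum, hcomm, mul_assoc, ← map_mul,
        Finset.sum_mul]
    _ = x * g (∑ φ : RingAut L, ∑ t : Lˣ, φ (t : L) * (t : L)⁻¹) := by
      rw [← Finset.mul_sum, ← map_sum, Finset.sum_comm]
    _ = x := by
      rw [Finset.sum_eq_single (1 : RingAut L)]
      · have h := sum_twist_self (L := L) 1
        simp only [RingAut.one_apply] at h ⊢
        rw [h, map_one, mul_one]
      · intro φ _ hφ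
        exact sum_twist_ne (ψ := 1) hφ
      · simp

end Comp

section Descent

variable {L : Type v} [Field L] [Fintype L] [CharP L 2]

/-- Averaging never vanishes identically. -/
theorem exists_avg_ne_zero (g : L →+* R) (τ : RingAut L) (hfin : IsOfFinOrder τ) (w : ℕ → R)
    (hw : w 0 ≠ 0) : ∃ t : L, ∑ i ∈ range (orderOf τ), g ((τ ^ i) t) * w i ≠ 0 := by
  classical
  by_contra hall
  push Not at hall
  apply hw
  have h0 : ∑ t : Lˣ, g (t : L)⁻¹ * ∑ i ∈ range (orderOf τ), g ((τ ^ i) (t : L)) * w i = 0 :=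
    Finset.sum_eq_zero fun t _ => by rw [hall, mul_zero]
  have h1 : ∀ (t : Lˣ) (i : ℕ), g (t : L)⁻¹ * (g ((τ ^ i) (t : L)) * w i) =
      g ((τ ^ i) (t : L) * ((1 : RingAut L) (t : L))⁻¹) * w i := fun t i => by
    rw [← mul_assoc, ← map_mul, mul_comm]; rfl
  simp only [Finset.mul_sum, h1] at h0
  rw [Finset.sum_comm] at h0
  simp only [← Finset.sum_mul, ← map_sum] at h0
  rw [Finset.sum_eq_single 0] at h0
  · rw [pow_zero, sum_twist_self, map_one, one_mul] at h0
    exact h0
  · intro i hi hi0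
    have : τ ^ i ≠ 1 := fun h =>
      pow_ne_one_of_lt_orderOf hi0 (Finset.mem_range.1 hi) h
    rw [sum_twist_ne this, map_zero, zero_mul]
  · intro h
    exact absurd (Finset.mem_range.2 hfin.orderOf_pos) h

/-- The norm to a fixed field of a finite field is surjective. -/
theorem exists_norm_eq (τ : RingAut L) (hfin : IsOfFinOrder τ) {ρ : L} (hρ0 : ρ ≠ 0)
    (hρ : τ ρ = ρ) : ∃ c : L, ∏ i ∈ range (orderOf τ), (τ ^ i) c = ρ := by
  classical
  set r := orderOf τ
  let τu : Lˣ →* Lˣ := Units.map (τ : L →* L)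
  let N : Lˣ →* Lˣ :=
    { toFun := fun u => ∏ i ∈ range r, Units.map ((τ ^ i : RingAut L) : L →* L) u
      map_one' := by simp
      map_mul' := fun a b => by simp [Finset.prod_mul_distrib] }
  let D : Lˣ →* Lˣ := MonoidHom.mk' (fun u => u / τu u) fun a b => by
    rw [map_mul, mul_div_mul_comm]
  have hNval : ∀ u : Lˣ, ((N u : Lˣ) : L) = ∏ i ∈ range r, (τ ^ i) (u : L) := by
    intro u
    simp [N, Units.coe_prod]
  have hkerD : ∀ u : Lˣ, u ∈ D.ker ↔ τ (u : L) = u := by
    intro u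
    rw [MonoidHom.mem_ker]
    simp only [D, MonoidHom.mk'_apply, div_eq_one, Units.ext_iff]
    exact eq_comm
  have hNle : N.range ≤ D.ker := by
    rintro _ ⟨u, rfl⟩
    rw [hkerD, hNval, map_prod]
    have h : ∀ i, τ ((τ ^ i) (u : L)) = (τ ^ (i + 1)) (u : L) := fun i => by
      rw [pow_succ']; rfl
    simp only [h]
    have hu0 : (u : L) ≠ 0 := u.ne_zero
    have := Finset.prod_range_succ (fun i => (τ ^ i) (u : L)) r
    rw [Finset.prod_range_succ', pow_zero, pow_orderOf_eq_one] at this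
    exact mul_right_cancel₀ hu0 this
  have hker : N.ker ≤ D.range := by
    intro c hc
    have hc1 : ∏ i ∈ range r, (τ ^ i) (c : L) = 1 := by
      rw [← hNval, MonoidHom.mem_ker.1 hc, Units.val_one]
    obtain ⟨s, hs⟩ := exists_avg_ne_zero (RingHom.id L) τ hfin
      (fun i => ∏ j ∈ range i, (τ ^ j) (c : L)) (by simp)
    set F : ℕ → L := fun i => (τ ^ i) s * ∏ j ∈ range i, (τ ^ j) (c : L) with hF
    have hstep : ∀ i, (c : L) * τ (F i) = F (i + 1) := by
      intro i
      simp only [hF, map_mul, map_prod]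
      rw [Finset.prod_range_succ', pow_zero, pow_succ']
      simp only [pow_succ', RingAut.mul_apply, RingAut.one_apply]
      ring
    have hper : F r = F 0 := by
      simp only [hF]
      rw [pow_orderOf_eq_one, hc1]
      simp
    have hsum : (c : L) * τ (∑ i ∈ range r, F i) = ∑ i ∈ range r, F i := by
      rw [map_sum, Finset.mul_sum]
      simp only [hstep]
      have := Finset.sum_range_succ F r
      rw [Finset.sum_range_succ', hper] at this
      exact add_right_cancel this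
    have hne : ∑ i ∈ range r, F i ≠ 0 := by simpa [hF] using hs
    refine ⟨Units.mk0 _ hne, Units.ext ?_⟩
    simp only [D, τu, MonoidHom.mk'_apply, Units.val_div_eq_div_val, Units.coe_map, Units.val_mk0]
    show (∑ i ∈ range r, F i) / τ (∑ i ∈ range r, F i) = (c : L)
    rw [div_eq_iff (fun h => hne ((map_eq_zero τ).1 h))]
    exact hsum.symm
  have hrange : D.ker ≤ N.range := by
    refine (Subgroup.eq_of_le_of_card_ge hNle ?_).ge
    have h1 := Subgroup.card_mul_index D.ker
    have h2 := Subgroup.card_mul_index N.ker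
    rw [Subgroup.index_ker] at h1 h2
    have h3 : Nat.card N.ker ≤ Nat.card D.range := Subgroup.card_le_of_le hker
    have h4 : 0 < Nat.card D.range := Nat.card_pos
    by_contra hlt
    push Not at hlt
    have h5 : Nat.card N.ker * Nat.card N.range < Nat.card D.range * Nat.card D.ker :=
      lt_of_le_of_lt (Nat.mul_le_mul_right _ h3) (Nat.mul_lt_mul_of_pos_left hlt h4)
    rw [h2, Nat.mul_comm, h1] at h5
    exact lt_irrefl _ h5
  obtain ⟨c, hc⟩ := hrange ((hkerD (Units.mk0 ρ hρ0)).2 hρ)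
  exact ⟨c, by rw [← hNval, hc, Units.val_mk0]⟩

/-- A semilinear map with scalar `r`-th power has an eigenvector. -/
theorem descent (g : L →+* R) (τ : RingAut L) (hfin : IsOfFinOrder τ) {Y : R} (hY : IsSemi g τ Y)
    (U : AddSubgroup R) (hUg : ∀ l, ∀ u ∈ U, g l * u ∈ U) (hUY : ∀ u ∈ U, Y * u ∈ U)
    {u0 : R} (hu0 : u0 ∈ U) (hu00 : u0 ≠ 0)
    {ρ : L} (hρ0 : ρ ≠ 0) (hρ : τ ρ = ρ)
    (hYr : ∀ u ∈ U, Y ^ orderOf τ * u = g ρ * u) :
    ∃ v ∈ U, v ≠ 0 ∧ ∃ c : L, Y * v = g c * v := by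
  classical
  obtain ⟨c, hc⟩ := exists_norm_eq τ hfin hρ0 hρ
  have hc0 : c ≠ 0 := by
    rintro rfl
    apply hρ0
    rw [← hc]
    exact Finset.prod_eq_zero (Finset.mem_range.2 hfin.orderOf_pos) (map_zero _)
  set r := orderOf τ
  obtain ⟨t, ht⟩ := exists_avg_ne_zero g τ hfin
    (fun i => g (∏ j ∈ range i, (τ ^ j) c)⁻¹ * (Y ^ i * u0)) (by simpa using hu00)
  set F : ℕ → R := fun i => g ((τ ^ i) t) * (g (∏ j ∈ range i, (τ ^ j) c)⁻¹ * (Y ^ i * u0)) with hF
  have hpowU : ∀ i, Y ^ i * u0 ∈ U := by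
    intro i
    induction i with
    | zero => simpa using hu0
    | succ i ih => rw [pow_succ', mul_assoc]; exact hUY _ ih
  have hFU : ∀ i, F i ∈ U := fun i => hUg _ _ (hUg _ _ (hpowU i))
  have hstep : ∀ i, Y * F i = g c * F (i + 1) := by
    intro i
    have hYl : ∀ (a : L) (W : R), Y * (g a * W) = g (τ a) * (Y * W) := fun a W => by
      rw [← mul_assoc, hY, mul_assoc]
    have key : τ ((τ ^ i) t) * τ (∏ j ∈ range i, (τ ^ j) c)⁻¹ =
        c * ((τ ^ (i + 1)) t * (∏ j ∈ range (i + 1), (τ ^ j) c)⁻¹) := by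
      rw [Finset.prod_range_succ', map_inv₀, map_prod]
      simp only [pow_succ', RingAut.mul_apply, pow_zero, RingAut.one_apply]
      field_simp
    simp only [hF]
    rw [hYl, hYl, ← mul_assoc Y, ← pow_succ', ← mul_assoc, ← map_mul, key, map_mul, map_mul,
      mul_assoc, mul_assoc]
  have hper : F r = F 0 := by
    simp only [hF]
    rw [pow_orderOf_eq_one, hc, hYr u0 hu0, ← mul_assoc (g ρ⁻¹), ← map_mul, inv_mul_cancel₀ hρ0]
    simp
  refine ⟨∑ i ∈ range r, F i, sum_mem fun i _ => hFU i, by simpa [hF] using ht, c, ?_⟩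
  rw [Finset.mul_sum, Finset.mul_sum]
  simp only [hstep]
  rw [← Finset.mul_sum, ← Finset.mul_sum]
  congr 1
  have := Finset.sum_range_succ F r
  rw [Finset.sum_range_succ', hper] at this
  exact add_right_cancel this

end Descent

section Jordan

variable [Finite R] [Nontrivial R] {S : AddSubgroup R}

theorem JordanSet.add_self (hS : JordanSet S) (a : R) : a + a = 0 := two_add_self hS.two a

theorem JordanSet.mul_add_mul (hS : JordanSet S) {a b c : R} (ha : a ∈ S) (hb : b ∈ S)
    (hc : c ∈ S) : a * b * c + c * b * a ∈ S := by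
  have h := S.sub_mem (S.sub_mem (hS.jordan _ (S.add_mem ha hc) _ hb) (hS.jordan _ ha _ hb))
    (hS.jordan _ hc _ hb)
  have e : (a + c) * b * (a + c) - a * b * a - c * b * c = a * b * c + c * b * a := by
    noncomm_ring
  rwa [e] at h

theorem JordanSet.pow_mem (hS : JordanSet S) {a : R} (ha : a ∈ S) : ∀ n : ℕ, a ^ n ∈ S
  | 0 => by simpa using hS.one_mem
  | 1 => by simpa using ha
  | n + 2 => by
    have h := hS.jordan a ha _ (hS.pow_mem ha n)
    rwa [show a ^ (n + 2) = a * a ^ n * a by rw [← pow_succ', ← pow_succ]]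

theorem JordanSet.eq_zero_of_mul_eq_zero (hS : JordanSet S) {a v : R} (ha : a ∈ S) (hv : v ≠ 0)
    (h : a * v = 0) : a = 0 := by
  by_contra h0
  exact hv ((hS.unit a ha h0).mul_right_eq_zero.1 h)

theorem JordanSet.mul_self_eq_zero (hS : JordanSet S) {a : R} (ha : a ∈ S) (h : a * a = 0) :
    a = 0 := by
  by_contra h0
  exact h0 (hS.eq_zero_of_mul_eq_zero ha h0 h)

/-- A maximal commutative subring inside `S` contains every member of `S` centralizing it. -/
theorem JordanSet.exists_maximal_field (hS : JordanSet S) :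
    ∃ (K : Type u) (_ : Field K) (_ : Fintype K) (f : K →+* R),
      (∀ k, f k ∈ S) ∧ ∀ x ∈ S, IsSemi f 1 x → ∃ k, f k = x := by
  classical
  have hne : {T : Subring R | (T : Set R) ⊆ S ∧ ∀ a ∈ T, ∀ b ∈ T, a * b = b * a}.Nonempty := by
    refine ⟨⊥, ?_, ?_⟩
    · intro a ha
      obtain ⟨n, rfl⟩ := Subring.mem_bot.1 ha
      rw [SetLike.mem_coe, ← zsmul_one]
      exact S.zsmul_mem hS.one_mem n
    · intro a ha b hb
      obtain ⟨n, rfl⟩ := Subring.mem_bot.1 ha
      exact (Int.cast_commute n b)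
  haveI : Finite (Subring R) := Finite.of_injective _ SetLike.coe_injective
  obtain ⟨T, ⟨hTS, hTc⟩, hmax⟩ := (Set.toFinite _).exists_maximal hne
  letI cr : CommRing T :=
    { (inferInstance : Ring T) with mul_comm := fun a b => Subtype.ext (hTc a a.2 b b.2) }
  haveI : NoZeroDivisors T := ⟨fun {a b} h => by
    by_cases ha : a = 0
    · exact Or.inl ha
    refine Or.inr (Subtype.ext ?_)
    exact (hS.unit _ (hTS a.2) fun h' => ha (Subtype.ext h')).mul_right_eq_zero.1
      (congrArg Subtype.val h)⟩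
  haveI : IsDomain T := NoZeroDivisors.to_isDomain T
  letI : Fintype T := Fintype.ofFinite T
  letI : Field T := Fintype.fieldOfDomain T
  refine ⟨T, inferInstance, inferInstance, T.subtype, fun k => hTS k.2, ?_⟩
  intro x hx hxc
  haveI : CharP T 2 := charTwo_of_hom hS.two T.subtype
  have hcx : ∀ k : T, x * (k : R) = k * x := fun k => hxc k
  let M : Submonoid R :=
    { carrier := {a | ∃ (k : T) (j : ℕ), (k : R) * x ^ j = a}
      one_mem' := ⟨1, 0, by simp⟩
      mul_mem' := by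
        rintro _ _ ⟨k, i, rfl⟩ ⟨l, j, rfl⟩
        refine ⟨k * l, i + j, ?_⟩
        rw [Subring.coe_mul, pow_add, mul_assoc (k : R) (x ^ i), ← mul_assoc (x ^ i),
          ((Commute.pow_left (show Commute x (l : R) from hcx l) i)).eq, mul_assoc, mul_assoc] }
  let T' : Subring R := Subring.closure (M : Set R)
  have hMc : ∀ a ∈ M, ∀ b ∈ M, a * b = b * a := by
    rintro _ ⟨k, i, rfl⟩ _ ⟨l, j, rfl⟩
    have hkl : Commute (k : R) (l : R) := hTc k k.2 l l.2
    have hxk : Commute (x ^ j) (k : R) := Commute.pow_left (hcx k) j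
    have hxl : Commute (x ^ i) (l : R) := Commute.pow_left (hcx l) i
    exact ((hkl.mul_right hxk.symm).mul_left (hxl.mul_right (Commute.pow_pow_self x i j))).eq
  have hT'S : (T' : Set R) ⊆ S := by
    intro a ha
    have ha' := Subring.mem_closure_iff.1 ha
    rw [Submonoid.closure_eq] at ha'
    refine (AddSubgroup.closure_le S).2 ?_ ha'
    rintro _ ⟨k, j, rfl⟩
    obtain ⟨l, hl⟩ := exists_sqrt k
    have h := hS.jordan _ (hTS l.2) _ (hS.pow_mem hx j)
    rwa [mul_assoc, (Commute.pow_left (hcx l) j).eq, ← mul_assoc, ← Subring.coe_mul, hl] at h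
  have hT'c : ∀ a ∈ T', ∀ b ∈ T', a * b = b * a := by
    haveI := Subring.isMulCommutative_closure (s := (M : Set R)) hMc
    intro a ha b hb
    exact congrArg Subtype.val (mul_comm' (⟨a, ha⟩ : T') ⟨b, hb⟩)
  have hle : T ≤ T' := fun a ha => Subring.subset_closure ⟨⟨a, ha⟩, 0, by simp⟩
  have hxT : x ∈ T := hmax ⟨hT'S, hT'c⟩ hle (Subring.subset_closure ⟨1, 1, by simp⟩)
  exact ⟨⟨x, hxT⟩, rfl⟩

variable {K : Type v} [Field K] [Fintype K] [CharP K 2] {f : K →+* R}

omit [Finite R] [Nontrivial R] [Fintype K] [CharP K 2] in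
theorem sum_mem_of_involution {α : Type*} [Fintype α] (S : AddSubgroup R) (ι : α → α)
    (hι : ∀ a, ι (ι a) = a) (F : α → R) (hpair : ∀ a, F a + F (ι a) ∈ S)
    (hfix : ∀ a, ι a = a → F a ∈ S) : ∑ a, F a ∈ S := by
  rw [← QuotientAddGroup.eq_zero_iff]
  rw [show ((∑ a, F a : R) : R ⧸ S) = ∑ a, (F a : R ⧸ S) from map_sum (QuotientAddGroup.mk' S) _ _]
  refine Finset.sum_involution (fun a _ => ι a) (fun a _ => ?_) (fun a _ h e => ?_)
    (fun a _ => Finset.mem_univ _) (fun a _ => hι a)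
  · rw [← QuotientAddGroup.mk_add, QuotientAddGroup.eq_zero_iff]
    exact hpair a
  · exact h ((QuotientAddGroup.eq_zero_iff _).2 (hfix a e))

omit [CharP K 2] in
theorem comp_inv_eq (φ : RingAut K) (x : R) [Fintype Kˣ] :
    comp f φ⁻¹ x = ∑ s : Kˣ, f (s : K)⁻¹ * x * f (φ (s : K)) := by
  classical
  simp only [comp]
  refine Finset.sum_nbij' (fun t => (Units.mapEquiv (φ⁻¹ : RingAut K).toMulEquiv t)⁻¹)
    (fun s => Units.mapEquiv φ.toMulEquiv s⁻¹) (by simp) (by simp) ?_ ?_ ?_
  · intro t _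
    ext
    simp
  · intro t _
    ext
    simp
  · intro t _
    simp

theorem JordanSet.comp_pair_mem (hS : JordanSet S) (hfS : ∀ k, f k ∈ S) {x : R} (hx : x ∈ S)
    (φ : RingAut K) : comp f φ x + comp f φ⁻¹ x ∈ S := by
  classical
  rw [comp_inv_eq, comp, ← Finset.sum_add_distrib]
  exact sum_mem fun t _ => hS.mul_add_mul (hfS _) hx (hfS _)

theorem JordanSet.comp_mem (hS : JordanSet S) (hfS : ∀ k, f k ∈ S) {x : R} (hx : x ∈ S)
    {φ : RingAut K} (hφ : φ * φ = 1) : comp f φ x ∈ S := by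
  classical
  have hφφ : ∀ a, φ (φ a) = a := fun a => DFunLike.congr_fun hφ a
  rw [comp]
  refine sum_mem_of_involution S (fun t => (Units.map (φ : K →* K) t)⁻¹) (fun t => ?_) _
    (fun t => ?_) fun t ht => ?_
  · ext
    simp [hφφ]
  · have h := hS.mul_add_mul (hfS (φ (t : K))) hx (hfS (t : K)⁻¹)
    simpa [hφφ] using h
  · have h1 : φ (t : K) = (t : K)⁻¹ := by
      have := congrArg (fun u : Kˣ => ((u : K))⁻¹) ht
      simpa using this
    rw [h1]
    exact hS.jordan _ (hfS _) _ hx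

/-- No nonzero member of `S` is semilinear for an involutory automorphism. -/
theorem JordanSet.pure_eq_zero (hS : JordanSet S)
    (hcent : ∀ a ∈ S, IsSemi f 1 a → ∃ k, f k = a) (hfS : ∀ k, f k ∈ S) {σ : RingAut K}
    (hσ1 : σ ≠ 1) (hσ2 : σ * σ = 1) {w : R} (hw : w ∈ S) (hsemi : IsSemi f σ w) : w = 0 := by
  by_contra hw0
  obtain ⟨k0, hk0⟩ := hcent _ (by simpa [pow_two] using hS.pow_mem hw 2) (hσ2 ▸ hsemi.mul hsemi)
  have hfix : σ k0 = k0 := by
    have h : f (σ k0 - k0) * w = 0 := by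
      rw [map_sub, sub_mul, ← hsemi k0, hk0, mul_assoc, sub_self]
    exact sub_eq_zero.1 (eq_zero_of_scalar_mul h hw0)
  obtain ⟨ρ, hρ⟩ := exists_sqrt k0
  have hρσ : σ ρ = ρ := mul_self_injective (by rw [← map_mul, hρ, hfix])
  have hsq : (w + f ρ) * (w + f ρ) = 0 := by
    rw [add_mul, mul_add, mul_add, hsemi ρ, hρσ, ← map_mul, hρ, hk0,
      show w * w + f ρ * w + (f ρ * w + w * w) = (w * w + w * w) + (f ρ * w + f ρ * w) by abel,
      hS.add_self, hS.add_self, add_zero]
  have hwρ : w = f ρ :=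
    two_eq_of_add hS.two (hS.mul_self_eq_zero (S.add_mem hw (hfS ρ)) hsq)
  have h1 := comp_ne (g := f) (isSemi_scalar (g := f) ρ) hσ1
  rw [← hwρ, comp_self hsemi] at h1
  exact hw0 h1

omit [Finite R] [Nontrivial R] in
/-- The additive span of `k σ(k)` is the whole field unless `σ` is an involution. -/
theorem span_norms_eq_top {σ : RingAut K} (hσ2 : σ * σ ≠ 1) (C : AddSubgroup K)
    (hC : ∀ k, k * σ k ∈ C) (a : K) : a ∈ C := by
  classical
  let M : Submonoid K :=
    { carrier := {c | ∃ k, k * σ k = c}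
      one_mem' := ⟨1, by simp⟩
      mul_mem' := by
        rintro _ _ ⟨k, rfl⟩ ⟨l, rfl⟩
        exact ⟨k * l, by rw [map_mul]; ring⟩ }
  let G0 : Subring K := Subring.closure (M : Set K)
  have hG0C : ∀ c ∈ G0, c ∈ C := by
    intro c hc
    have hc' := Subring.mem_closure_iff.1 hc
    rw [Submonoid.closure_eq] at hc'
    refine (AddSubgroup.closure_le C).2 ?_ hc'
    rintro _ ⟨k, rfl⟩
    exact hC k
  have hM : ∀ k, k * σ k ∈ G0 := fun k => Subring.subset_closure ⟨k, rfl⟩
  let G : Subfield K :=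
    { G0 with
      inv_mem' := fun x hx => by
        by_cases h : x = 0
        · simp [h]
        have hq : 2 ≤ Fintype.card K := Fintype.one_lt_card
        have : x⁻¹ = x ^ (Fintype.card K - 2) := by
          refine inv_eq_of_mul_eq_one_right ?_
          rw [← pow_succ', show Fintype.card K - 2 + 1 = Fintype.card K - 1 by omega,
            FiniteField.pow_card_sub_one_eq_one x h]
        rw [this]
        exact G0.pow_mem hx _ }
  obtain ⟨ζ, hζ⟩ := IsCyclic.exists_generator (α := Kˣ)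
  have hgen : ∀ x : K, x ≠ 0 → ∃ n : ℕ, (ζ : K) ^ n = x := fun x hx => by
    obtain ⟨n, hn⟩ := (mem_powers_iff_mem_zpowers.2 (hζ (Units.mk0 x hx)))
    exact ⟨n, by simpa using congrArg Units.val hn⟩
  set m : K := (ζ : K)
  have hA : m + σ m ∈ G0 := by
    have h := G0.sub_mem (G0.sub_mem (hM (1 + m)) (hM m)) G0.one_mem
    have e : (1 + m) * σ (1 + m) - m * σ m - 1 = m + σ m := by rw [map_add, map_one]; ring
    rwa [e] at h
  have hB : m * σ m ∈ G0 := hM m
  letI : Fintype G := Fintype.ofFinite G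
  set g := Fintype.card G
  have hfixG : ∀ x ∈ G0, x ^ g = x := fun x hx => by
    simpa using congrArg Subtype.val (FiniteField.pow_card (⟨x, hx⟩ : G))
  obtain ⟨n, -, hn⟩ := FiniteField.card G 2
  have hadd : ∀ x y : K, (x + y) ^ g = x ^ g + y ^ g := fun x y => by
    rw [show g = 2 ^ (n : ℕ) from hn]
    exact add_pow_char_pow x y ..
  have hroot : (m ^ g + m) * (m ^ g + σ m) = 0 := by
    have e : m * m + (m + σ m) * m + m * σ m = 0 := by
      have : m * m + (m + σ m) * m + m * σ m = (m * m + m * m) + (m * σ m + m * σ m) := by ring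
      rw [this, CharTwo.add_self_eq_zero, CharTwo.add_self_eq_zero, add_zero]
    have h := congrArg (fun x : K => x ^ g) e
    rw [hadd, hadd, mul_pow m m, mul_pow (m + σ m) m, hfixG _ hA, hfixG _ hB,
      zero_pow (Fintype.card_ne_zero : g ≠ 0)] at h
    linear_combination h
  rcases mul_eq_zero.1 hroot with h | h
  · have hm : m ^ g = m := CharTwo.add_eq_zero.1 h
    have hall : ∀ x : K, x ^ g = x := by
      intro x
      by_cases hx : x = 0
      · rw [hx, zero_pow Fintype.card_ne_zero]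
      obtain ⟨i, rfl⟩ := hgen x hx
      rw [pow_right_comm, hm]
    have hg1 : 1 < g := Fintype.one_lt_card
    have hcard : Fintype.card K ≤ g := by
      have h := Polynomial.card_le_degree_of_subset_roots (p := (Polynomial.X ^ g - Polynomial.X : Polynomial K))
        (Z := Finset.univ) (fun x _ => by
          rw [Polynomial.mem_roots (FiniteField.X_pow_card_sub_X_ne_zero K hg1)]
          simp [hall x])
      rwa [FiniteField.X_pow_card_sub_X_natDegree_eq K hg1] at h
    have hbij : Function.Bijective (G.subtype : G → K) :=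
      (Fintype.bijective_iff_injective_and_card _).2 ⟨Subtype.val_injective,
        le_antisymm (Fintype.card_le_of_injective _ Subtype.val_injective) hcard⟩
    obtain ⟨x, hx⟩ := hbij.2 a
    exact hx ▸ hG0C _ x.2
  · exfalso
    have hm : m ^ g = σ m := CharTwo.add_eq_zero.1 h
    have hσσ : σ (σ m) = m := by
      rw [← hm, map_pow, ← hm]
      have : σ m = (m + σ m) + m := by
        rw [add_right_comm, CharTwo.add_self_eq_zero, zero_add]
      rw [hm]
      conv_lhs => rw [this]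
      rw [hadd, hfixG _ hA, hm, add_assoc, CharTwo.add_self_eq_zero, add_zero]
    refine hσ2 (RingEquiv.ext fun x => ?_)
    show σ (σ x) = x
    by_cases hx : x = 0
    · simp [hx]
    obtain ⟨i, rfl⟩ := hgen x hx
    rw [map_pow, map_pow, hσσ]

/-- A subring whose nonzero members are units is a finite field. -/
theorem exists_field_of_subring (T : Subring R) (hc : ∀ a ∈ T, ∀ b ∈ T, a * b = b * a)
    (hu : ∀ a ∈ T, a ≠ 0 → IsUnit a) :
    ∃ (L : Type u) (_ : Field L) (_ : Fintype L) (g : L →+* R), ∀ a, a ∈ T ↔ ∃ l, g l = a := by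
  classical
  letI cr : CommRing T :=
    { (inferInstance : Ring T) with mul_comm := fun a b => Subtype.ext (hc a a.2 b b.2) }
  haveI : NoZeroDivisors T := ⟨fun {a b} h => by
    by_cases ha : a = 0
    · exact Or.inl ha
    exact Or.inr (Subtype.ext ((hu _ a.2 fun h' => ha (Subtype.ext h')).mul_right_eq_zero.1
      (congrArg Subtype.val h)))⟩
  haveI : IsDomain T := NoZeroDivisors.to_isDomain T
  letI : Fintype T := Fintype.ofFinite T
  letI : Field T := Fintype.fieldOfDomain T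
  exact ⟨T, inferInstance, inferInstance, T.subtype,
    fun a => ⟨fun h => ⟨⟨a, h⟩, rfl⟩, by rintro ⟨l, rfl⟩; exact l.2⟩⟩

omit [Finite R] [Nontrivial R] in
/-- An eigenvector of `y` is one of its inverse. -/
theorem eigen_inv {L : Type*} [Field L] {g : L →+* R} {τ : RingAut L} {y z v : R}
    (hz : IsSemi g τ⁻¹ z) (hzy : z * y = 1) (hv : v ≠ 0) {c : L} (hyv : y * v = g c * v) :
    z * v = g (τ⁻¹ c)⁻¹ * v := by
  have h : v = g (τ⁻¹ c) * (z * v) := by
    rw [← mul_assoc, ← hz c, mul_assoc, ← hyv, ← mul_assoc, hzy, one_mul]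
  have hne : τ⁻¹ c ≠ 0 := fun h0 => hv (by rw [h, h0, map_zero, zero_mul])
  conv_rhs => rw [h, ← mul_assoc, ← map_mul, inv_mul_cancel₀ hne, map_one, one_mul]

theorem inv_ne_of_mul_self_ne_one {σ : RingAut K} (hσ : σ * σ ≠ 1) : σ ≠ σ⁻¹ ∧ σ ≠ 1 :=
  ⟨fun h => hσ (mul_eq_one_iff_eq_inv.2 h), fun h => hσ (by rw [h, one_mul])⟩

/-- A pair `y + z ∈ S` has no common eigenvector. -/
theorem JordanSet.no_eigenvector (hS : JordanSet S) (hfS : ∀ k, f k ∈ S) {σ : RingAut K}
    (hσ : σ * σ ≠ 1) {y z : R} (hy : IsSemi f σ y) (hz : IsSemi f σ⁻¹ z) (hx : y + z ∈ S)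
    (hy0 : y ≠ 0) {v : R} (hv : v ≠ 0) {c c' : K} (hyv : y * v = f c * v) (hzv : z * v = f c' * v) :
    False := by
  have h1 : (y + z + f (c + c')) * v = 0 := by
    rw [add_mul, add_mul, hyv, hzv, map_add, add_mul, hS.add_self]
  have h2 := congrArg (comp f σ) (hS.eq_zero_of_mul_eq_zero (S.add_mem hx (hfS _)) hv h1)
  rw [comp_add, comp_add, comp_zero, comp_self hy, comp_ne hz (inv_ne_of_mul_self_ne_one hσ).1,
    comp_ne (isSemi_scalar _) (inv_ne_of_mul_self_ne_one hσ).2, add_zero, add_zero] at h2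
  exact hy0 h2

theorem finite_ringAut : Finite (RingAut K) :=
  Finite.of_injective (fun e : RingAut K => (e : K → K)) DFunLike.coe_injective

theorem add_pow_of_mul_zero {y z : R} (h1 : y * z = 0) (h2 : z * y = 0) :
    ∀ n, (y + z) ^ (n + 1) = y ^ (n + 1) + z ^ (n + 1)
  | 0 => by simp
  | n + 1 => by
    rw [pow_succ, add_pow_of_mul_zero h1 h2 n, add_mul, mul_add, mul_add, pow_succ y n,
      pow_succ z n, mul_assoc (y ^ n) y z, h1, mul_zero, mul_assoc (z ^ n) z y, h2, mul_zero,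
      add_zero, zero_add, ← pow_succ y n, ← pow_succ z n, ← pow_succ, ← pow_succ]

theorem JordanSet.no_pair_zero (hS : JordanSet S)
    (hcent : ∀ a ∈ S, IsSemi f 1 a → ∃ k, f k = a) (hfS : ∀ k, f k ∈ S) {σ : RingAut K}
    (hσ : σ * σ ≠ 1) {y z : R} (hy : IsSemi f σ y) (hz : IsSemi f σ⁻¹ z) (hx : y + z ∈ S)
    (hyz : y * z = 0) (hzy : z * y = 0) (hyr : y ^ orderOf σ ≠ 0) : False := by
  haveI := finite_ringAut (K := K)
  have hfin := isOfFinOrder_of_finite σ
  obtain ⟨n, hn⟩ := Nat.exists_eq_succ_of_ne_zero hfin.orderOf_pos.ne'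
  have hy0 : y ≠ 0 := fun h => hyr (by rw [h, hn, zero_pow (Nat.succ_ne_zero n)])
  have hsum : (y + z) ^ orderOf σ = y ^ orderOf σ + z ^ orderOf σ := by
    rw [hn]; exact add_pow_of_mul_zero hyz hzy n
  have hy1 : IsSemi f 1 (y ^ orderOf σ) := pow_orderOf_eq_one σ ▸ hy.pow (orderOf σ)
  have hz1 : IsSemi f 1 (z ^ orderOf σ) := by
    have h := hz.pow (orderOf σ)
    rwa [inv_pow, pow_orderOf_eq_one, inv_one] at h
  obtain ⟨l, hl⟩ := hcent _ (hS.pow_mem hx (orderOf σ)) (hsum ▸ hy1.add hz1)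
  have hzy' : z * y ^ orderOf σ = 0 := by
    rw [hn, pow_succ', ← mul_assoc, hzy, zero_mul]
  have hl0 : l ≠ 0 := by
    rintro rfl
    rw [map_zero, hsum] at hl
    have h := congrArg (fun a => a * y ^ orderOf σ) hl
    simp only [zero_mul, add_mul] at h
    rw [hn, pow_succ z n, mul_assoc (z ^ n), ← hn, hzy', mul_zero, add_zero] at h
    have hx0 : (y + z) ^ orderOf σ = 0 := by rw [hsum, ← hl]
    have hxne : y + z ≠ 0 := fun h0 => by
      have h2 := congrArg (comp f σ) h0
      rw [comp_add, comp_zero, comp_self hy, comp_ne hz (inv_ne_of_mul_self_ne_one hσ).1,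
        add_zero] at h2
      exact hy0 h2
    exact ((hS.unit _ hx hxne).pow _).ne_zero hx0
  have hlσ : σ l = l := by
    have hcx : (y + z) * f l = f l * (y + z) := by rw [hl, ← pow_succ', ← pow_succ]
    rw [add_mul, hy, hz] at hcx
    have h := congrArg (comp f σ) hcx
    rw [mul_add, comp_add, comp_add, comp_self (hy.smul _), comp_self (hy.smul _),
      comp_ne (hz.smul _) (inv_ne_of_mul_self_ne_one hσ).1,
      comp_ne (hz.smul _) (inv_ne_of_mul_self_ne_one hσ).1, add_zero, add_zero] at h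
    exact sub_eq_zero.1 (eq_zero_of_scalar_mul
      (by rw [map_sub, sub_mul, h, sub_self]) hy0)
  let U : AddSubgroup R := (AddMonoidHom.mulLeft (y ^ orderOf σ)).range
  have hUz : ∀ u ∈ U, z * u = 0 := by
    rintro _ ⟨u, rfl⟩
    rw [AddMonoidHom.coe_mulLeft, ← mul_assoc, hzy', zero_mul]
  obtain ⟨v, hvU, hv, c, hc⟩ := descent f σ hfin hy U
    (by
      rintro k _ ⟨u, rfl⟩
      exact ⟨f k * u, by simp only [AddMonoidHom.coe_mulLeft, ← mul_assoc, hy1 k]; rfl⟩)
    (by
      rintro _ ⟨u, rfl⟩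
      exact ⟨y * u, by simp only [AddMonoidHom.coe_mulLeft, ← mul_assoc, ← pow_succ, ← pow_succ']⟩)
    (⟨1, rfl⟩ : AddMonoidHom.mulLeft (y ^ orderOf σ) 1 ∈ U)
    (by simpa using hyr) hl0 hlσ
    (by
      intro u hu
      rw [hl, hsum, add_mul, hn, pow_succ z n, mul_assoc (z ^ n), hUz u hu, mul_zero, add_zero])
  exact hS.no_eigenvector hfS hσ hy hz hx hy0 hv hc (c' := 0)
    (by rw [hUz v hvU, map_zero, zero_mul])

/-- The elements `yᵏ + y⁻ᵏ` lie in `S`. -/
theorem JordanSet.pow_add_inv_pow_mem (hS : JordanSet S) {y z : R} (hyz : y * z = 1)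
    (hzy : z * y = 1) (hx : y + z ∈ S) : ∀ j : ℕ, y ^ j + z ^ j ∈ S
  | 0 => by rw [pow_zero, pow_zero, hS.two]; exact S.zero_mem
  | 1 => by simpa using hx
  | 2 => by
    have h := hS.pow_mem hx 2
    have e : (y + z) ^ 2 = y ^ 2 + z ^ 2 + ((1 : R) + 1) := by
      rw [pow_two, pow_two, pow_two, add_mul, mul_add, mul_add, hyz, hzy]; abel
    rwa [e, hS.two, add_zero] at h
  | 3 => by
    have h := S.sub_mem (hS.jordan _ hx _ hx) hx
    have e : (y + z) * (y + z) * (y + z) - (y + z) = y ^ 3 + z ^ 3 + ((y + z) + (y + z)) := by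
      simp only [pow_succ, pow_zero, one_mul, add_mul, mul_add, hyz, hzy, mul_assoc, mul_one]
      abel
    rwa [e, hS.add_self, add_zero] at h
  | k + 4 => by
    have h := S.sub_mem (hS.jordan _ hx _ (hS.pow_add_inv_pow_mem hyz hzy hx (k + 2)))
      (hS.pow_add_inv_pow_mem hyz hzy hx k)
    have hyy : ∀ n, y * y ^ n * z = y ^ n := fun n => by
      rw [← pow_succ', pow_succ, mul_assoc, hyz, mul_one]
    have hyy' : ∀ n, z * y ^ n * y = y ^ n := fun n => by
      rw [mul_assoc, ← pow_succ, pow_succ', ← mul_assoc, hzy, one_mul]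
    have hzz : ∀ n, z * z ^ n * y = z ^ n := fun n => by
      rw [← pow_succ', pow_succ, mul_assoc, hzy, mul_one]
    have hzz' : ∀ n, y * z ^ n * z = z ^ n := fun n => by
      rw [mul_assoc, ← pow_succ, pow_succ', ← mul_assoc, hyz, one_mul]
    have hyzy : y * z ^ (k + 2) * y = z ^ k := by
      rw [pow_succ', pow_succ, ← mul_assoc, ← mul_assoc, hyz, one_mul, mul_assoc, hzy, mul_one]
    have hzyz : z * y ^ (k + 2) * z = y ^ k := by
      rw [pow_succ', pow_succ, ← mul_assoc, ← mul_assoc, hzy, one_mul, mul_assoc, hyz, mul_one]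
    have hyyy : y * y ^ (k + 2) * y = y ^ (k + 4) := by rw [← pow_succ', ← pow_succ]
    have hzzz : z * z ^ (k + 2) * z = z ^ (k + 4) := by rw [← pow_succ', ← pow_succ]
    have e : (y + z) * (y ^ (k + 2) + z ^ (k + 2)) * (y + z) - (y ^ k + z ^ k) =
        y ^ (k + 4) + z ^ (k + 4) +
          ((y ^ (k + 2) + z ^ (k + 2)) + (y ^ (k + 2) + z ^ (k + 2))) := by
      simp only [add_mul, mul_add, hyy, hyy', hzz, hzz', hyzy, hzyz, hyyy, hzzz]
      abel
    rwa [e, hS.add_self, add_zero] at h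

theorem JordanSet.no_pair_one (hS : JordanSet S)
    (hcent : ∀ a ∈ S, IsSemi f 1 a → ∃ k, f k = a) (hfS : ∀ k, f k ∈ S) {σ : RingAut K}
    (hσ : σ * σ ≠ 1) {y z : R} (hy : IsSemi f σ y) (hz : IsSemi f σ⁻¹ z) (hx : y + z ∈ S)
    (hfam : ∀ c, f c * y + f (σ⁻¹ c) * z ∈ S)
    (hyz : y * z = 1) (hzy : z * y = 1) : False := by
  haveI := finite_ringAut (K := K)
  have hfin := isOfFinOrder_of_finite σ
  obtain ⟨hσi, hσ1⟩ := inv_ne_of_mul_self_ne_one hσ
  have hy0 : y ≠ 0 := fun h => by rw [h, zero_mul] at hyz; exact zero_ne_one hyz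
  have hcyz : Commute y z := hyz.trans hzy.symm
  set r := orderOf σ with hr
  have hσr : σ ^ r = 1 := pow_orderOf_eq_one σ
  have hr3 : 3 ≤ r := by
    have h1 : r ≠ 1 := fun h => hσ1 (orderOf_eq_one_iff.1 h)
    have h2 : r ≠ 2 := fun h => hσ (by rw [← pow_two, ← h, hσr])
    have := hfin.orderOf_pos
    omega
  have hη : IsSemi f 1 (y ^ r) := hσr ▸ hy.pow r
  have hθ : IsSemi f 1 (z ^ r) := by
    have h := hz.pow r
    rwa [inv_pow, hσr, inv_one] at h
  have hT := hS.pow_add_inv_pow_mem hyz hzy hx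
  rcases Nat.even_or_odd r with ⟨h, hh⟩ | ⟨h, hh⟩
  · have hφ1 : σ ^ h ≠ 1 := pow_ne_one_of_lt_orderOf (by omega) (by omega)
    have hφ2 : σ ^ h * σ ^ h = 1 := by rw [← pow_add, ← hh, hσr]
    have hzs : IsSemi f (σ ^ h) (z ^ h) := by
      have h' := hz.pow h
      rwa [inv_pow, ← eq_inv_of_mul_eq_one_left hφ2] at h'
    have h0 := hS.pure_eq_zero hcent hfS hφ1 hφ2 (hT h) ((hy.pow h).add hzs)
    have hyr : y ^ r = 1 := by
      rw [hh, pow_add]
      conv_lhs => arg 2; rw [two_eq_of_add hS.two h0]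
      rw [← hcyz.mul_pow, hyz, one_pow]
    obtain ⟨v, -, hv, c, hc⟩ := descent f σ hfin hy ⊤ (fun _ _ _ => trivial) (fun _ _ => trivial)
      (u0 := 1) trivial one_ne_zero one_ne_zero (map_one σ)
      (fun u _ => by rw [hyr, map_one])
    exact hS.no_eigenvector hfS hσ hy hz hx hy0 hv hc (eigen_inv hz hzy hv hc)
  obtain ⟨l, hl⟩ := hcent _ (hT r) (hη.add hθ)
  have hηθ : y ^ r * z ^ r = 1 := by rw [← hcyz.mul_pow, hyz, one_pow]
  have hquad : y ^ r * y ^ r + f l * y ^ r + 1 = 0 := by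
    rw [hl, add_mul, (hcyz.pow_pow r r).symm.eq, hηθ, ← add_assoc, hS.add_self, zero_add, hS.two]
  have hlσ : σ l = l := by
    have hcy : y * f l = f l * y := by
      rw [hl]
      exact (((Commute.refl y).pow_right r).add_right (hcyz.pow_right r)).eq
    exact sub_eq_zero.1 (eq_zero_of_scalar_mul
      (by rw [map_sub, sub_mul, ← hy, hcy, sub_self]) hy0)
  by_cases hroot : ∃ ρ : K, ρ * ρ + l * ρ + 1 = 0
  · obtain ⟨ρ₁, hρ₁⟩ := hroot
    obtain ⟨ρ, u0, hρ, hu00, hu0⟩ : ∃ (ρ : K) (u0 : R),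
        ρ * ρ + l * ρ + 1 = 0 ∧ u0 ≠ 0 ∧ (y ^ r + f ρ) * u0 = 0 := by
      by_cases hne : y ^ r + f (ρ₁ + l) = 0
      · refine ⟨ρ₁ + l, 1, ?_, one_ne_zero, by rw [hne, zero_mul]⟩
        have : (ρ₁ + l) * (ρ₁ + l) + l * (ρ₁ + l) + 1 =
            (ρ₁ * ρ₁ + l * ρ₁ + 1) + ((ρ₁ * l + l * l) + (ρ₁ * l + l * l)) - 0 := by ring
        rw [this, hρ₁, CharTwo.add_self_eq_zero, add_zero, sub_zero]
      · refine ⟨ρ₁, _, hρ₁, hne, ?_⟩
        have h1 : f ρ₁ * f (ρ₁ + l) = 1 := by
          rw [← map_mul, ← map_one f]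
          exact congrArg f (CharTwo.add_eq_zero.1 (by rw [mul_add, mul_comm ρ₁ l]; exact hρ₁))
        rw [add_mul, mul_add, mul_add, h1, map_add, mul_add, hη ρ₁, hη l]
        rw [show y ^ r * y ^ r + (f ((1 : RingAut K) ρ₁) * y ^ r + f ((1 : RingAut K) l) * y ^ r) +
            (f ρ₁ * y ^ r + 1) = (y ^ r * y ^ r + f l * y ^ r + 1) +
              (f ρ₁ * y ^ r + f ρ₁ * y ^ r) by simp only [RingAut.one_apply]; abel]
        rw [hquad, hS.add_self, add_zero]
    have hρ0 : ρ ≠ 0 := by rintro rfl; simp at hρ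
    have hρσ : σ ρ = ρ := by
      have h2 : σ (σ ρ) = ρ := by
        have hroot' : σ ρ * σ ρ + l * σ ρ + 1 = 0 := by
          have := congrArg σ hρ
          rwa [map_add, map_add, map_mul, map_mul, map_one, map_zero, hlσ] at this
        have hprod : (σ ρ - ρ) * (σ ρ + ρ + l) = 0 := by linear_combination hroot' - hρ
        rcases mul_eq_zero.1 hprod with h' | h'
        · rw [sub_eq_zero.1 h', sub_eq_zero.1 h']
        · have h'' : σ ρ = ρ + l := CharTwo.add_eq_zero.1 (by rw [← add_assoc]; exact h')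
          rw [h'', map_add, h'', hlσ, add_assoc, CharTwo.add_self_eq_zero, add_zero]
      have h3 : ∀ k, ((σ ^ 2) ^ k) ρ = ρ := by
        intro k
        induction k with
        | zero => rfl
        | succ k ih =>
          rw [pow_succ, RingAut.mul_apply, pow_two σ, RingAut.mul_apply, h2, ← pow_two σ, ih]
      have h4 := DFunLike.congr_fun hσr ρ
      rw [hh, pow_succ', pow_mul, RingAut.mul_apply, h3] at h4
      exact h4
    let U : AddSubgroup R := (AddMonoidHom.mulLeft (y ^ r + f ρ)).ker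
    have hmemU : ∀ u, u ∈ U ↔ (y ^ r + f ρ) * u = 0 := fun u => AddMonoidHom.mem_ker
    obtain ⟨v, -, hv, c, hc⟩ := descent f σ hfin hy U
      (by
        intro k u hu
        rw [hmemU] at hu ⊢
        have : (y ^ r + f ρ) * f k = f k * (y ^ r + f ρ) := (hη.add (isSemi_scalar ρ)) k
        rw [← mul_assoc, this, mul_assoc, hu, mul_zero])
      (by
        intro u hu
        rw [hmemU] at hu ⊢
        have : (y ^ r + f ρ) * y = y * (y ^ r + f ρ) := by
          rw [add_mul, mul_add, hy ρ, hρσ, ← pow_succ, ← pow_succ']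
        rw [← mul_assoc, this, mul_assoc, hu, mul_zero])
      ((hmemU u0).2 hu0) hu00 hρ0 hρσ
      (fun u hu => by
        have h' := (hmemU u).1 hu
        rw [add_mul] at h'
        exact two_eq_of_add hS.two h')
    exact hS.no_eigenvector hfS hσ hy hz hx hy0 hv hc (eigen_inv hz hzy hv hc)
  push Not at hroot
  set η := y ^ r
  have hηk : ∀ k, η * f k = f k * η := fun k => hη k
  let T : Subring R :=
    { carrier := {a | ∃ p q : K, f p + f q * η = a}
      one_mem' := ⟨1, 0, by simp⟩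
      zero_mem' := ⟨0, 0, by simp⟩
      add_mem' := by
        rintro _ _ ⟨p, q, rfl⟩ ⟨p', q', rfl⟩
        exact ⟨p + p', q + q', by rw [map_add, map_add, add_mul]; abel⟩
      neg_mem' := by
        rintro _ ⟨p, q, rfl⟩
        exact ⟨-p, -q, by rw [map_neg, map_neg, neg_mul, neg_add]⟩
      mul_mem' := by
        rintro _ _ ⟨p, q, rfl⟩ ⟨p', q', rfl⟩
        refine ⟨p * p' + q * q', p * q' + q * p' + q * q' * l, ?_⟩
        have hsq : η * η = f l * η + 1 :=
          two_eq_of_add hS.two (by rw [← add_assoc]; exact hquad)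
        have e : f q * η * (f q' * η) = f (q * q' * l) * η + f (q * q') := by
          rw [mul_assoc, ← mul_assoc η, hηk, mul_assoc, hsq, mul_add, mul_add, mul_one,
            map_mul f (q * q'), map_mul f q q']
          simp only [mul_assoc]
        rw [add_mul (f p), mul_add, mul_add, e, mul_assoc (f q) η (f p'), hηk]
        simp only [map_add, map_mul, add_mul, mul_assoc]
        abel }
  have hTc : ∀ a ∈ T, ∀ b ∈ T, a * b = b * a := by
    rintro _ ⟨p, q, rfl⟩ _ ⟨p', q', rfl⟩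
    have c1 : ∀ i j : K, Commute (f i) (f j) := fun i j => (Commute.all i j).map f
    have c2 : ∀ i : K, Commute η (f i) := fun i => hηk i
    exact (((c1 p p').add_right ((c1 p q').mul_right (c2 p).symm)).add_left
      (((c1 q p').mul_left (c2 p')).add_right
        (((c1 q q').mul_right (c2 q).symm).mul_left ((c2 q').mul_right (Commute.refl η))))).eq
  have hnorm : ∀ p q : K, (f p + f q * η) * (f (p + q * l) + f q * η) =
      f (p * p + p * q * l + q * q) := by
    intro p q
    have hsq : f l * η = η * η + 1 :=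
      two_eq_of_add hS.two (by
        rw [show f l * η + (η * η + 1) = η * η + f l * η + 1 by abel]; exact hquad)
    have e1 : f q * η * f (p + q * l) = f (q * p) * η + f (q * q) * (η * η + 1) := by
      rw [mul_assoc, hηk, ← mul_assoc, ← map_mul, ← hsq, ← mul_assoc, ← map_mul, ← add_mul,
        ← map_add, mul_add, mul_assoc q q]
    have e2 : f q * η * (f q * η) = f (q * q) * (η * η) := by
      rw [mul_assoc, ← mul_assoc η, hηk, mul_assoc, ← mul_assoc, map_mul]
    rw [add_mul, mul_add, mul_add, e1, e2, ← map_mul, ← mul_assoc, ← map_mul, mul_comm q p,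
      mul_add (f (q * q)), mul_one, mul_add p, ← mul_assoc p]
    rw [show f (p * p + p * q * l) + f (p * q) * η +
        (f (p * q) * η + (f (q * q) * (η * η) + f (q * q)) + f (q * q) * (η * η)) =
        f (p * p + p * q * l) + f (q * q) + ((f (p * q) * η + f (q * q) * (η * η)) +
          (f (p * q) * η + f (q * q) * (η * η))) by abel, hS.add_self, add_zero, ← map_add]
  have hnz : ∀ p q : K, p * p + p * q * l + q * q = 0 → p = 0 ∧ q = 0 := by
    intro p q h0
    by_cases hq : q = 0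
    · subst hq
      exact ⟨by simpa using h0, rfl⟩
    exfalso
    apply hroot (p / q)
    field_simp
    linear_combination h0
  have hunit : ∀ a ∈ T, a ≠ 0 → IsUnit a := by
    rintro _ ⟨p, q, rfl⟩ hne
    have hN : p * p + p * q * l + q * q ≠ 0 := fun h0 => by
      obtain ⟨rfl, rfl⟩ := hnz p q h0
      simp at hne
    refine IsUnit.of_mul_eq_one ((f (p + q * l) + f q * η) * f (p * p + p * q * l + q * q)⁻¹) ?_
    rw [← mul_assoc, hnorm, ← map_mul, mul_inv_cancel₀ hN, map_one]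
  obtain ⟨L, hLfield, hLfin, g, hg⟩ := exists_field_of_subring T hTc hunit
  haveI : CharP L 2 := charTwo_of_hom hS.two g
  have hconj : ∀ a : L, ∃ b : L, g b = y * g a * z := by
    intro a
    obtain ⟨p, q, hpq⟩ := (hg (g a)).2 ⟨a, rfl⟩
    refine (hg _).1 ⟨σ p, σ q, ?_⟩
    rw [← hpq, mul_add, add_mul, hy p, mul_assoc (f (σ p)), hyz, mul_one, ← mul_assoc y, hy q,
      mul_assoc (f (σ q)) y, show y * η = η * y from (Commute.self_pow y r).eq, ← mul_assoc,
      mul_assoc (f (σ q) * η) y z, hyz, mul_one]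
  choose τ0 hτ0 using hconj
  let τh : L →+* L :=
    { toFun := τ0
      map_one' := g.injective (by rw [hτ0, map_one, mul_one, hyz])
      map_mul' := fun a b => g.injective (by
        rw [hτ0, map_mul, map_mul, hτ0, hτ0, mul_assoc (y * g a) z, ← mul_assoc z,
          ← mul_assoc z y, hzy, one_mul]
        simp only [mul_assoc])
      map_zero' := g.injective (by rw [hτ0, map_zero, mul_zero, zero_mul])
      map_add' := fun a b => g.injective (by
        rw [hτ0, map_add, map_add, hτ0, hτ0, mul_add, add_mul]) }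
  let τ : RingAut L := RingEquiv.ofBijective τh
    ⟨τh.injective, (Finite.injective_iff_surjective).1 τh.injective⟩
  have hτ : ∀ a, g (τ a) = y * g a * z := hτ0
  have hy' : IsSemi g τ y := fun a => by rw [hτ, mul_assoc, hzy, mul_one]
  have hz' : IsSemi g τ⁻¹ z := fun a => by
    have h := hτ (τ⁻¹ a)
    rw [show τ (τ⁻¹ a) = a from τ.apply_symm_apply a] at h
    rw [h, mul_assoc y, ← mul_assoc z, hzy, one_mul]
  have hτpow : ∀ n a, g ((τ ^ n) a) = y ^ n * g a * z ^ n := by
    intro n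
    induction n with
    | zero => intro a; simp
    | succ n ih =>
      intro a
      rw [pow_succ', RingAut.mul_apply, hτ, ih, pow_succ' y, pow_succ z]
      simp only [mul_assoc]
  have hηT : η ∈ T := ⟨0, 1, by simp⟩
  obtain ⟨ρ, hρ⟩ := (hg η).1 hηT
  have hτr : τ ^ r = 1 := RingEquiv.ext fun a => g.injective (by
    rw [hτpow, show η * g a = g a * η from hTc _ hηT _ ((hg _).2 ⟨a, rfl⟩), mul_assoc, hηθ,
      mul_one]
    rfl)
  have hord : orderOf τ = r := by
    refine Nat.dvd_antisymm (orderOf_dvd_of_pow_eq_one hτr) ?_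
    rw [hr, orderOf_dvd_iff_pow_eq_one]
    refine RingEquiv.ext fun a => f.injective ?_
    obtain ⟨a', ha'⟩ := (hg (f a)).1 ⟨a, 0, by simp⟩
    have h := hτpow (orderOf τ) a'
    rw [pow_orderOf_eq_one, RingAut.one_apply, ha', hy.pow (orderOf τ) a, mul_assoc,
      ← hcyz.mul_pow, hyz, one_pow, mul_one] at h
    exact h.symm
  haveI := finite_ringAut (K := L)
  obtain ⟨v, -, hv, c0, hc0⟩ := descent g τ (isOfFinOrder_of_finite τ) hy' ⊤
    (fun _ _ _ => trivial) (fun _ _ => trivial) (u0 := 1) trivial one_ne_zero (ρ := ρ)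
    (fun h0 => by
      rw [h0, map_zero] at hρ
      exact zero_ne_one (α := R) (by rw [← hηθ, ← hρ, zero_mul]))
    (g.injective (by
      rw [hτ, hρ, show y * η = η * y from (Commute.self_pow y r).eq, mul_assoc, hyz, mul_one]))
    (fun u _ => by rw [hord, hρ])
  have hzv := eigen_inv hz' hzy hv hc0
  obtain ⟨a1, b1, h1⟩ := (hg (g c0)).2 ⟨_, rfl⟩
  obtain ⟨a2, b2, h2⟩ := (hg (g (τ⁻¹ c0)⁻¹)).2 ⟨_, rfl⟩
  have hxcv : ∀ c : K, (f c * y + f (σ⁻¹ c) * z) * v =
      (f (c * a1 + σ⁻¹ c * a2) + f (c * b1 + σ⁻¹ c * b2) * η) * v := by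
    intro c
    rw [add_mul (f c * y), mul_assoc (f c), hc0, mul_assoc (f (σ⁻¹ c)), hzv, ← mul_assoc,
      ← mul_assoc, ← add_mul, ← h1, ← h2]
    congr 1
    simp only [map_add, map_mul, mul_add, add_mul, mul_assoc]
    abel
  let φ : K →+ K := AddMonoidHom.mk' (fun c => c * b1 + σ⁻¹ c * b2)
    fun a b => by rw [map_add]; ring
  have hσii : σ * σ ≠ 1 := hσ
  have hkill : ∀ (E : R) (a : K), E ∈ S → (E + f a) * v = 0 → E = f a := fun E a hE h =>
    two_eq_of_add hS.two (hS.eq_zero_of_mul_eq_zero (S.add_mem hE (hfS a)) hv h)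
  have hφ : Function.Surjective φ := by
    refine (Finite.injective_iff_surjective).1 ((injective_iff_map_eq_zero φ).2 fun c hc => ?_)
    have hc' : c * b1 + σ⁻¹ c * b2 = 0 := hc
    have h := hkill _ (c * a1 + σ⁻¹ c * a2) (hfam c)
      (by rw [add_mul, hxcv, hc', map_zero, zero_mul, add_zero, hS.add_self])
    have h' := congrArg (comp f σ) h
    rw [comp_add, comp_self (hy.smul c), comp_ne (hz.smul _) hσi, add_zero,
      comp_ne (isSemi_scalar _) hσ1] at h'
    exact eq_zero_of_scalar_mul h' hy0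
  obtain ⟨a, b, hab⟩ :=
    (hg (g (τ c0 * c0 + τ⁻¹ (τ⁻¹ c0)⁻¹ * (τ⁻¹ c0)⁻¹))).2 ⟨_, rfl⟩
  have h2v : (y ^ 2 + z ^ 2) * v = (f a + f b * η) * v := by
    rw [hab, map_add, map_mul, map_mul, add_mul, add_mul, pow_two, pow_two]
    congr 1
    · rw [mul_assoc, hc0, ← mul_assoc, hy' c0, mul_assoc, hc0, ← mul_assoc]
    · rw [mul_assoc, hzv, ← mul_assoc, hz' _, mul_assoc, hzv, ← mul_assoc]
  obtain ⟨c, hc⟩ := hφ b
  have hc' : c * b1 + σ⁻¹ c * b2 = b := hc
  have hE := hkill (y ^ 2 + z ^ 2 + (f c * y + f (σ⁻¹ c) * z)) (a + (c * a1 + σ⁻¹ c * a2))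
    (S.add_mem (hT 2) (hfam c)) (by
      rw [add_mul, add_mul, h2v, hxcv, hc', ← add_mul, ← add_mul, map_add f a]
      rw [show f a + f b * η + (f (c * a1 + σ⁻¹ c * a2) + f b * η) +
          (f a + f (c * a1 + σ⁻¹ c * a2)) = (f a + f a) + (f b * η + f b * η) +
            (f (c * a1 + σ⁻¹ c * a2) + f (c * a1 + σ⁻¹ c * a2)) by abel]
      simp [hS.add_self])
  have hcomp := congrArg (comp f (σ ^ 2)) hE
  have n1 : σ ^ 2 ≠ σ := fun h' => hσ1 (by
    have : σ * σ = σ * 1 := by rw [← pow_two, h', mul_one]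
    exact mul_left_cancel this)
  have n2 : σ ^ 2 ≠ (σ⁻¹) ^ 2 := fun h' => by
    rw [inv_pow, ← mul_eq_one_iff_eq_inv, ← pow_add] at h'
    have hdvd : r ∣ 4 := orderOf_dvd_of_pow_eq_one h'
    have := Nat.le_of_dvd (by norm_num) hdvd
    interval_cases r <;> omega
  have n3 : σ ^ 2 ≠ 1 := fun h' => hσ (by rw [← pow_two, h'])
  rw [comp_add, comp_add, comp_add, comp_self (hy.pow 2), comp_ne (hz.pow 2) n2,
    comp_ne (hy.smul c) n1, comp_ne (isSemi_scalar _) n3, add_zero, zero_add] at hcomp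
  by_cases h3 : σ ^ 2 = σ⁻¹
  · rw [h3, comp_self (hz.smul _)] at hcomp
    have hr3' : r = 3 := by
      have hle : r ≤ 3 := Nat.le_of_dvd (by norm_num) (orderOf_dvd_of_pow_eq_one (by
        rw [pow_succ, h3, inv_mul_cancel]))
      omega
    have h5 := congrArg (fun t : R => t * y) hcomp
    simp only [add_mul, zero_mul, mul_assoc, hzy, mul_one, ← pow_succ] at h5
    have h6 : η = f (σ⁻¹ c) := two_eq_of_add hS.two (by
      rw [show η = y ^ (2 + 1) by rw [show η = y ^ r from rfl, hr3']]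
      exact h5)
    apply hroot (σ⁻¹ c)
    apply f.injective
    rw [map_add, map_add, map_mul, map_mul, map_one, map_zero, ← h6, hquad]
  · rw [comp_ne (hz.smul _) h3, add_zero] at hcomp
    have hunit : IsUnit y := IsUnit.of_mul_eq_one z hyz
    exact (hunit.pow 2).ne_zero hcomp

theorem JordanSet.no_pair (hS : JordanSet S)
    (hcent : ∀ a ∈ S, IsSemi f 1 a → ∃ k, f k = a) (hfS : ∀ k, f k ∈ S) {σ : RingAut K}
    (hσ : σ * σ ≠ 1) {y z : R} (hy : IsSemi f σ y) (hz : IsSemi f σ⁻¹ z) (hx : y + z ∈ S)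
    (hy0 : y ≠ 0) : False := by
  classical
  haveI := finite_ringAut (K := K)
  obtain ⟨hσi, hσ1⟩ := inv_ne_of_mul_self_ne_one hσ
  have hσii : σ⁻¹ * σ⁻¹ ≠ 1 := fun h => hσ (by
    rw [← inv_inj, mul_inv_rev, inv_one, h])
  let Φ : K →+ R := AddMonoidHom.mk' (fun c => f c * y + f (σ⁻¹ c) * z) fun a b => by
    simp only [map_add, add_mul]; abel
  have hgenfam : ∀ k, k * σ k ∈ S.comap Φ := by
    intro k
    show f (k * σ k) * y + f (σ⁻¹ (k * σ k)) * z ∈ S
    have h := hS.jordan _ (hfS k) _ hx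
    have e : f k * (y + z) * f k = f (k * σ k) * y + f (σ⁻¹ (k * σ k)) * z := by
      rw [mul_assoc, add_mul, hy, hz, mul_add, ← mul_assoc, ← mul_assoc, ← map_mul, ← map_mul,
        map_mul σ⁻¹ k (σ k), show σ⁻¹ (σ k) = k from σ.symm_apply_apply k, mul_comm (σ⁻¹ k) k]
    rwa [e] at h
  have hfam : ∀ c, f c * y + f (σ⁻¹ c) * z ∈ S := span_norms_eq_top hσ _ hgenfam
  have hcomb : ∀ d, ∃ u, f u = f d * (y * z) + f (σ⁻¹ d) * (z * y) := by
    intro d
    obtain ⟨c, rfl⟩ := exists_sqrt d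
    have hs := hS.pow_mem (hfam c) 2
    rw [pow_two] at hs
    obtain ⟨u, hu⟩ := hcent _ (hS.comp_mem hfS hs (one_mul 1)) (comp_semi 1 _)
    refine ⟨u, hu.trans ?_⟩
    have hA : IsSemi f 1 (y * z) := mul_inv_cancel σ ▸ hy.mul hz
    have hB : IsSemi f 1 (z * y) := inv_mul_cancel σ ▸ hz.mul hy
    have e1 : f c * y * (f (σ⁻¹ c) * z) = f (c * c) * (y * z) := by
      rw [mul_assoc, ← mul_assoc y, hy, show σ (σ⁻¹ c) = c from σ.apply_symm_apply c, mul_assoc,
        ← mul_assoc, ← map_mul]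
    have e2 : f (σ⁻¹ c) * z * (f c * y) = f (σ⁻¹ (c * c)) * (z * y) := by
      rw [mul_assoc, ← mul_assoc z, hz, mul_assoc, ← mul_assoc, ← map_mul, ← map_mul σ⁻¹]
    rw [add_mul, mul_add, mul_add, comp_add, comp_add, comp_add, e1, e2,
      comp_ne ((hy.smul c).mul (hy.smul c)) hσ.symm,
      comp_ne ((hz.smul _).mul (hz.smul _)) hσii.symm, comp_self (hA.smul _),
      comp_self (hB.smul _), zero_add, add_zero]
  obtain ⟨κ, hκ⟩ : ∃ κ, f κ = y * z := by
    obtain ⟨m, hm⟩ : ∃ m, σ⁻¹ m ≠ m := by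
      by_contra hall
      push Not at hall
      exact hσ1 (inv_eq_one.1 (RingEquiv.ext hall))
    obtain ⟨s, hs⟩ := hcomb 1
    obtain ⟨u, hu⟩ := hcomb m
    simp only [map_one, one_mul] at hs
    refine ⟨(m - σ⁻¹ m)⁻¹ * (u - σ⁻¹ m * s), ?_⟩
    have e : f (u - σ⁻¹ m * s) = f (m - σ⁻¹ m) * (y * z) := by
      rw [map_sub, map_sub, map_mul f (σ⁻¹ m) s, hu, hs, mul_add, sub_mul]; abel
    rw [map_mul, e, ← mul_assoc, ← map_mul, inv_mul_cancel₀ (sub_ne_zero.2 (Ne.symm hm)),
      map_one, one_mul]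
  obtain ⟨κ', hκ'⟩ : ∃ κ', f κ' = z * y := by
    obtain ⟨s, hs⟩ := hcomb 1
    simp only [map_one, one_mul] at hs
    exact ⟨s - κ, by rw [map_sub, hs, hκ, add_sub_cancel_left]⟩
  have hκκ : κ = σ κ' := sub_eq_zero.1 (eq_zero_of_scalar_mul (a := y)
    (by rw [map_sub, sub_mul, ← hy κ', hκ, hκ', mul_assoc, sub_self]) hy0)
  by_cases hκ0 : κ = 0
  · have hyz : y * z = 0 := by rw [← hκ, hκ0, map_zero]
    have hzy : z * y = 0 := by
      rw [← hκ', (map_eq_zero σ).1 (by rw [← hκκ, hκ0] : σ κ' = 0), map_zero]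
    by_cases hyr : y ^ orderOf σ = 0
    · have hzr : z ^ orderOf σ⁻¹ ≠ 0 := by
        intro hzr
        rw [orderOf_inv] at hzr
        obtain ⟨n, hn⟩ : ∃ n, orderOf σ = n + 1 :=
          ⟨orderOf σ - 1, by have := (isOfFinOrder_of_finite σ).orderOf_pos; omega⟩
        have h0 : (y + z) ^ orderOf σ = 0 := by
          rw [hn, add_pow_of_mul_zero hyz hzy, ← hn, hyr, hzr, add_zero]
        have hxne : y + z ≠ 0 := fun h0 => by
          have h2 := congrArg (comp f σ) h0
          rw [comp_add, comp_zero, comp_self hy, comp_ne hz hσi, add_zero] at h2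
          exact hy0 h2
        exact ((hS.unit _ hx hxne).pow _).ne_zero h0
      exact hS.no_pair_zero hcent hfS hσii hz (by rwa [inv_inv]) (by rwa [add_comm]) hzy hyz hzr
    · exact hS.no_pair_zero hcent hfS hσ hy hz hx hyz hzy hyr
  · obtain ⟨c, hc⟩ := exists_sqrt κ⁻¹
    have hyz : f c * y * (f (σ⁻¹ c) * z) = 1 := by
      rw [mul_assoc, ← mul_assoc y, hy, show σ (σ⁻¹ c) = c from σ.apply_symm_apply c, mul_assoc,
        ← mul_assoc, ← map_mul, hc, ← hκ, ← map_mul, inv_mul_cancel₀ hκ0, map_one]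
    refine hS.no_pair_one hcent hfS hσ (hy.smul c) (hz.smul _) (hfam c) (fun d => ?_) hyz
      (mul_eq_one_comm.1 hyz)
    rw [← mul_assoc, ← map_mul, ← mul_assoc (f (σ⁻¹ d)), ← map_mul, ← map_mul σ⁻¹]
    exact hfam _

/-- Every member of `S` lies in the maximal subfield. -/
theorem JordanSet.mem_range (hS : JordanSet S)
    (hcent : ∀ a ∈ S, IsSemi f 1 a → ∃ k, f k = a) (hfS : ∀ k, f k ∈ S) {x : R} (hx : x ∈ S) :
    ∃ k, f k = x := by
  classical
  haveI := finite_ringAut (K := K)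
  letI := Fintype.ofFinite (RingAut K)
  have hzero : ∀ φ : RingAut K, φ ≠ 1 → comp f φ x = 0 := by
    intro φ hφ1
    by_cases hφ2 : φ * φ = 1
    · exact hS.pure_eq_zero hcent hfS hφ1 hφ2 (hS.comp_mem hfS hx hφ2) (comp_semi φ x)
    · by_contra hne
      exact hS.no_pair hcent hfS hφ2 (comp_semi φ x) (comp_semi φ⁻¹ x)
        (hS.comp_pair_mem hfS hx φ) hne
  have h := sum_comp (g := f) x
  rw [Finset.sum_eq_single 1 (fun φ _ hφ => hzero φ hφ) (by simp)] at h
  exact hcent x hx (h ▸ comp_semi 1 x)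

/-- **Jordan sets are commutative.** -/
theorem JordanSet.commute (hS : JordanSet S) {a b : R} (ha : a ∈ S) (hb : b ∈ S) :
    a * b = b * a := by
  obtain ⟨K, _, _, f, hfS, hcent⟩ := hS.exists_maximal_field
  haveI : CharP K 2 := charTwo_of_hom hS.two f
  obtain ⟨k, rfl⟩ := hS.mem_range hcent hfS ha
  obtain ⟨l, rfl⟩ := hS.mem_range hcent hfS hb
  rw [← map_mul, ← map_mul, mul_comm]

end Jordan

end CfsgLib.Timmesfeld
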